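import Mathlib
import Cfsg.Statements.S1730
import Cfsg.Agent.GH.Defs

/-!
Simple groups of 2-rank three: the conclusion and the standing hypotheses.
See `stubs/Cfsg/Agent/R3/PLAN.md`.
-/

set_option autoImplicit false
set_option linter.unusedSectionVars false

namespace Cfsg.Agent.R3

open Cfsg.Agent.Inv.Fz Subgroup

/-- The conclusion of the theorem. -/
def Goal (G : Type*) [Group G] : Prop :=
    (∃ (F : Type) (_ : Field F) (_ : Fintype F), Odd (Fintype.card F) ∧ Nonempty (G ≃* ↥(Cfsg.Lie.chevG2.group F))) ∨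
      (∃ (K : Type) (_ : Field K) (_ : Fintype K) (q : ℕ), Odd q ∧ Fintype.card K = q ^ 3 ∧ Nonempty (G ≃* ↥(Cfsg.Lie.twistedD4 K q))) ∨
      Cfsg.Lie.IsoRee G ∨
      (∃ (F : Type) (_ : Field F) (_ : Fintype F), Fintype.card F = 8 ∧
        (Nonempty (G ≃* Matrix.ProjectiveSpecialLinearGroup (Fin 2) F) ∨ Nonempty (G ≃* ↥(Cfsg.Lie.Sz F 4)) ∨
          ∃ (E : Type) (_ : Field E) (_ : Fintype E), Fintype.card E = 64 ∧ Nonempty (G ≃* Cfsg.PSU 3 E 8))) ∨
      Cfsg.Spor.IsoJ1 G ∨ Cfsg.Spor.IsoM12 G ∨ Cfsg.Spor.IsoON G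

/-- A counterexample with a Sylow 2-subgroup. -/
structure Base (G : Type*) [Group G] where
  S : Subgroup G
  syl : IsSylIn 2 S ⊤
  simple : IsSimpleGroup G
  nc : ¬ IsMulCommutative G
  h3 : Cfsg.PRankLE 2 3 G
  h2 : ¬ Cfsg.PRankLE 2 2 G
  ng : ¬ Goal G

end Cfsg.Agent.R3
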