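import Mathlib
import Cfsg.Agent.R3.Base
import Cfsg.Agent.GH.Basic
import Cfsg.Agent.GT.PPrimeCore

/-!
Simple groups of 2-rank three, a normal `E₈` that is not self-centralising: the notions.
See `stubs/Cfsg/Agent/R3/PLAN.md`.
-/

set_option autoImplicit false
set_option linter.unusedSectionVars false

namespace Cfsg.Agent.R3

open Cfsg.Agent.Inv.Fz Cfsg.Agent.GH Subgroup
open scoped commutatorElement

variable {G : Type*} [Group G]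

/-- No elementary abelian subgroup of order 16. -/
def N16 (S : Subgroup G) : Prop := ∀ A ≤ S, (∀ a ∈ A, a * a = 1) → Nat.card A ≤ 8

/-- `P` is a largest subgroup of `S` whose normaliser moves the central involution `z`; `Y = Ω₁ Z(P)`. -/
structure Mv (S P Y : Subgroup G) (z n : G) : Prop where
  zS : z ∈ S
  z1 : z ≠ 1
  zz : z * z = 1
  zc : Cz z S
  le : P ≤ S
  memY : ∀ x, x ∈ Y ↔ x ∈ P ∧ x * x = 1 ∧ Cz x P
  cen : P = S ⊓ centralizer (Y : Set G)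
  sylN : IsSylIn 2 (S ⊓ normalizer (P : Set G)) (normalizer (P : Set G))
  sylC : IsSylIn 2 P (centralizer (Y : Set G))
  nP : n ∈ normalizer (P : Set G)
  mv : n * z * n⁻¹ ≠ z
  max : ∀ Q ≤ S, z ∈ Q → Nat.card P < Nat.card Q → ∀ h : G, cj h Q ≤ S → h * z * h⁻¹ = z

/-- The normal four-group `Y` of `S` is fused by the 3-element `y`, `P = C_S(Y)`. -/
structure Pl (S P Y : Subgroup G) (z y : G) : Prop where
  two : IsPGroup 2 S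
  n16 : N16 S
  el : El 4 Y
  YS : Y ≤ S
  nY : S ≤ normalizer (Y : Set G)
  cen : P = S ⊓ centralizer (Y : Set G)
  zY : z ∈ Y
  z1 : z ≠ 1
  zc : Cz z S
  yP : y ∈ normalizer (P : Set G)
  yY : y ∈ normalizer (Y : Set G)
  y3 : ∃ k : ℕ, y ^ 3 ^ k = 1
  mv : y * z * y⁻¹ ≠ z
  inv : ∀ s ∈ S, s ∉ P → s * y * s⁻¹ * y ∈ P

/-- The frame: `V = ⟨z, w, a⟩` normal in `S`, `y` rotates `z, w, z w`, `l² = z`. -/
structure Fr0 (G : Type*) [Group G] where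
  S : Subgroup G
  V : Subgroup G
  z : G
  w : G
  a : G
  y : G
  l : G
  two : IsPGroup 2 S
  n16 : N16 S
  VS : V ≤ S
  nV : S ≤ normalizer (V : Set G)
  el : El 8 V
  gen : V = closure {z, w, a}
  zc : Cz z S
  nW : ∀ g ∈ S, g * w * g⁻¹ = w ∨ g * w * g⁻¹ = w * z
  yR : y ∈ normalizer ((S ⊓ centralizer {w} : Subgroup G) : Set G)
  yz : y * z * y⁻¹ = w
  yw : y * w * y⁻¹ = z * w
  ya : y * a * y⁻¹ = a
  y3 : ∃ k : ℕ, y ^ 3 ^ k = 1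
  cov : ∃ r ∈ S, r * w = w * r ∧ r * a * r⁻¹ = a * z
  lS : l ∈ S
  lC : Cz l V
  ll : l * l = z
  lc : l * (y * l * y⁻¹) = y * l * y⁻¹ * l
  lp : l * (y * l * y⁻¹) * (y * (y * l * y⁻¹) * y⁻¹) = 1
  lV : ∀ g ∈ S, g * l * g⁻¹ * l⁻¹ ∈ V

namespace Fr0

variable (f : Fr0 G)

/-- `W = ⟨z, w⟩`. -/
def W : Subgroup G := closure {f.z, f.w}

/-- `R = C_S(W)`. -/
def R : Subgroup G := f.S ⊓ centralizer {f.w}

/-- `C = C_S(V)`. -/
def C : Subgroup G := f.S ⊓ centralizer (f.V : Set G)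

/-- `E = N_S(⟨z, a⟩)`, the preimage of the transvections with centre `z`. -/
def E : Subgroup G := f.S ⊓ normalizer ((closure {f.z, f.a} : Subgroup G) : Set G)

/-- `b² = w`. -/
def b : G := f.y * f.l * f.y⁻¹

/-- `B = 4 × 4`. -/
def B : Subgroup G := closure {f.l, f.b}

/-- `L = 4 × 4 × 2`. -/
def L : Subgroup G := closure {f.l, f.b, f.a}

/-- `M = N(C) ∩ N(V)`. -/
def M : Subgroup G := normalizer (f.C : Set G) ⊓ normalizer (f.V : Set G)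

/-- `[L, t] = W`. -/
def Onto (t : G) : Prop := ∀ u ∈ f.W, ∃ m ∈ f.L, t * m * t⁻¹ = m * u

/-- `t` centralises a subgroup `4 × 4` of `L`. -/
def Fix (t : G) : Prop := ∀ u ∈ f.W, ∃ m ∈ f.L, m * m = u ∧ t * m = m * t

/-- The only `S`-conjugates of `t` in `t V` are `t` and `t z`. -/
def H1 (t : G) : Prop := ∀ g ∈ f.S, ∀ v ∈ f.V, g * t * g⁻¹ = t * v → v = 1 ∨ v = f.z

/-- Conjugates of `t` over different transvections generate a dihedral group of order at least 16. -/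
def H2 (t : G) : Prop := ∀ r ∈ f.R, r ∉ f.E → (t * (r * t * r⁻¹)) ^ 4 ≠ 1

/-- `[R, t] = ⟨ρ⟩` is cyclic. -/
structure Cy (t ρ : G) : Prop where
  mem : ρ ∈ f.R
  act : ρ * f.a * ρ⁻¹ = f.a * f.z
  comm : ∀ r ∈ f.R, t * r * t⁻¹ * r⁻¹ ∈ zpowers ρ
  inv : t * ρ * t⁻¹ = ρ⁻¹
  norm : f.R ≤ normalizer (zpowers ρ : Set G)
  four : ∃ γ ∈ zpowers ρ, γ ∈ f.L ∧ γ * γ = f.z

/-- `M` induces `GL(V)`. -/
def Full : Prop := ∀ u₁ u₂ u₃ : G, f.V = closure {u₁, u₂, u₃} →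
  ∃ m ∈ f.M, m * f.z * m⁻¹ = u₁ ∧ m * f.w * m⁻¹ = u₂ ∧ m * f.a * m⁻¹ = u₃

/-- An element of `M` that induces a transvection with centre `u` fixes no element of order four of `C` whose
square is not `u`. -/
def Typ : Prop := ∀ m ∈ f.M, ∀ u ∈ f.V, (∀ v ∈ f.V, m * v * m⁻¹ = v ∨ m * v * m⁻¹ = v * u) → ¬ Cz m f.V →
  ∀ k ∈ f.C, k * k ∈ f.V → m * k = k * m → k * k = 1 ∨ k * k = u

/-- The conjugates of `V` in `S` other than `V` meet `V` in `⟨z⟩`. -/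
def NoA : Prop := ∀ g : G, cj g f.V ≤ f.S → cj g f.V ≠ f.V → ∀ v ∈ f.V, v ∈ cj g f.V → v = 1 ∨ v = f.z

theorem cz_of_mem_C {c : G} (h : c ∈ f.C) : Cz c f.V := fun r hr => (mem_centralizer_iff.1 h.2 r hr).symm

/-- `K / V = Ω₁ Z(C / V)`. -/
def K : Subgroup G where
  carrier := {c | c ∈ f.C ∧ c * c ∈ f.V ∧ ∀ d ∈ f.C, ⁅c, d⁆ ∈ f.V}
  one_mem' := ⟨one_mem _, by simp, fun d _ => by simp⟩
  mul_mem' := by
    rintro c e ⟨c1, c2, c3⟩ ⟨e1, e2, e3⟩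
    have n : ∀ g ∈ f.C, ∀ v ∈ f.V, g * v * g⁻¹ ∈ f.V := fun g hg v hv =>
      (mem_normalizer_iff.1 (f.nV hg.1) v).1 hv
    refine ⟨mul_mem c1 e1, ?_, fun d hd => ?_⟩
    · have : c * e * (c * e) = c * ⁅e, c⁆ * c⁻¹ * (c * c) * (e * e) := by
        rw [commutatorElement_def]; group
      rw [this]
      exact mul_mem (mul_mem (n c c1 _ (e3 c c1)) c2) e2
    · have : ⁅c * e, d⁆ = c * ⁅e, d⁆ * c⁻¹ * ⁅c, d⁆ := by
        simp only [commutatorElement_def]; group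
      rw [this]
      exact mul_mem (n c c1 _ (e3 d hd)) (c3 d hd)
  inv_mem' := by
    rintro c ⟨c1, c2, c3⟩
    refine ⟨inv_mem c1, by rw [← mul_inv_rev]; exact inv_mem c2, fun d hd => ?_⟩
    have : ⁅c⁻¹, d⁆ = c⁻¹ * ⁅c, d⁆⁻¹ * c⁻¹⁻¹ := by
      simp only [commutatorElement_def]; group
    rw [this]
    exact (mem_normalizer_iff.1 (f.nV (inv_mem c1.1)) _).1 (inv_mem (c3 d hd))

theorem mem_K {c : G} : c ∈ f.K ↔ c ∈ f.C ∧ c * c ∈ f.V ∧ ∀ d ∈ f.C, ⁅c, d⁆ ∈ f.V := Iff.rfl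

/-- `K = 4 × 4 × 4`. -/
structure K3 : Prop where
  card : Nat.card f.K = 64
  comm : ∀ k ∈ f.K, Cz k f.K
  root : ∀ v ∈ f.V, ∃ k ∈ f.K, k * k = v

/-- A layer `8 × 8 × 8` above `K`. -/
structure K8 (J : Subgroup G) : Prop where
  le : J ≤ f.C
  ge : f.K ≤ J
  norm : f.M ≤ normalizer (J : Set G)
  comm : ∀ e ∈ J, Cz e J
  sq : ∀ e ∈ J, e * e ∈ f.K
  root : ∀ k ∈ f.K, ∃ e ∈ J, e * e * k⁻¹ ∈ f.V
  mem : ∀ c ∈ f.C, c * c ∈ f.K → c ∈ J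

/-- An involution over `τ₀` with `⟨z, t⟩` conjugate to `W`. -/
structure Tb (t g : G) : Prop where
  mem : t ∈ f.R
  sq : t * t = 1
  act : t * f.a * t⁻¹ = f.a * f.z
  gz : g * f.z * g⁻¹ = f.z
  cent : cj g (f.S ⊓ centralizer {t}) ≤ f.S
  le : cj g f.V ≤ f.S
  ne : cj g f.V ≠ f.V

/-- The Sylow 2-subgroup of the O'Nan group: `C = 4 × 4 × 4`, `E = C_S(i)`. -/
structure On1 (i x : G) : Prop where
  iC : i ∈ f.C
  ii : i * i = f.z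
  cent : f.E = f.S ⊓ centralizer {i}
  inv : ∀ g ∈ f.S, g ∉ f.E → g * i * g⁻¹ = i⁻¹
  out : ∃ u ∈ f.R, u ∉ f.E ∧ u * u = 1
  cardC : Nat.card f.C = 64
  cardE : Nat.card f.E = 256
  commC : ∀ k ∈ f.C, Cz k f.C
  root : ∀ k ∈ f.C, k * k = f.z → k * i⁻¹ ∈ f.V
  der : i ∈ ⁅f.E, f.E⁆
  noz : ∀ j ∈ f.S, j ∉ f.E → j * j ≠ f.z
  stab : ∀ m ∈ f.M, m * f.z * m⁻¹ = f.z → m * i * m⁻¹ = i ∨ m * i * m⁻¹ = i⁻¹
  xi : x * i = i * x
  xV : x ∈ normalizer (f.V : Set G)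
  xodd : Odd (orderOf x)
  xw : x * f.w * x⁻¹ = f.a
  xa : x * f.a * x⁻¹ = f.a * f.w
  commE : ∀ e ∈ f.E, ∀ k ∈ f.C, ⁅e, k⁆ ∈ f.V ⊔ zpowers i
  cenT : ∀ e ∈ f.E, e ∉ f.C → ∀ k ∈ f.C, ⁅e, k⁆ ∈ zpowers i → k ∈ f.V ⊔ zpowers i
  cenE : ∀ e ∈ f.E, (∀ d ∈ f.E, ⁅e, d⁆ ∈ zpowers i) ↔ e ∈ f.V ⊔ zpowers i
  cenC : ∀ e ∈ f.E, (∀ d ∈ f.C, ⁅e, d⁆ ∈ zpowers i) → e ∈ f.C
  cenB : ∀ g : G, cj g f.V ≤ f.S → cj g f.V ≠ f.V → ∀ e ∈ f.S, Cz e (cj g f.V) → e ∈ cj g f.V ⊔ zpowers i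
  burn : ∀ m ∈ normalizer (f.C : Set G), Cz m f.V → Cz m f.C

/-- `E / ⟨i⟩ = A A' / ⟨i⟩` is of type `L₃(4)`. -/
structure On (i x : G) (A A' : Subgroup G) : Prop extends On1 f i x where
  cardA : Nat.card A = 64
  cardA' : Nat.card A' = 64
  sup : A ⊔ A' = f.E
  inf : A ⊓ A' = f.V ⊔ zpowers i
  sqA : ∀ e ∈ A, e * e = 1 ∨ e * e = f.z
  sqA' : ∀ e ∈ A', e * e = 1 ∨ e * e = f.z
  conjA : ∃ g : G, cj g f.V ≤ f.E ∧ A = f.V ⊔ cj g f.V ⊔ zpowers i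
  conjA' : ∃ g : G, cj g f.V ≤ f.E ∧ A' = f.V ⊔ cj g f.V ⊔ zpowers i
  invol : ∀ e ∈ f.E, e * e ∈ zpowers i → e ∈ A ∨ e ∈ A'
  inV : ∀ t ∈ f.E, t * t = 1 → ∃ g : G, cj g f.V ≤ f.E ∧ t ∈ cj g f.V

end Fr0

/-- The frame with `S / C` dihedral of order 8. -/
structure Fr (G : Type*) [Group G] extends Fr0 G where
  s : G
  sS : s ∈ S
  sw : s * w * s⁻¹ = w * z
  sa : s * a * s⁻¹ = a
  sy : s * y * s⁻¹ * y ∈ S ⊓ centralizer {w}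

/-- `s` is an involution inverting `y`. -/
structure Fr.Inv (f : Fr G) : Prop where
  sq : f.s * f.s = 1
  inv : f.s * f.y * f.s⁻¹ = f.y⁻¹

/-- A counterexample with a frame. -/
structure Cx0 (G : Type*) [Group G] extends Fr0 G where
  syl : IsSylIn 2 S ⊤
  simple : IsSimpleGroup G
  nc : ¬ IsMulCommutative G
  h3 : Cfsg.PRankLE 2 3 G
  h2 : ¬ Cfsg.PRankLE 2 2 G
  ng : ¬ Goal G

/-- A counterexample with a dihedral frame. -/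
structure Cx (G : Type*) [Group G] extends Fr G where
  syl : IsSylIn 2 S ⊤
  simple : IsSimpleGroup G
  nc : ¬ IsMulCommutative G
  h3 : Cfsg.PRankLE 2 3 G
  h2 : ¬ Cfsg.PRankLE 2 2 G
  ng : ¬ Goal G

/-- The underlying counterexample. -/
def Cx0.base (c : Cx0 G) : Base G := ⟨c.S, c.syl, c.simple, c.nc, c.h3, c.h2, c.ng⟩

/-- The underlying counterexample. -/
def Cx.base (c : Cx G) : Base G := ⟨c.S, c.syl, c.simple, c.nc, c.h3, c.h2, c.ng⟩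

/-- `O(C_G(v))`. -/
def th (v : G) : Subgroup G := GT.pPrimeCoreOf 2 (centralizer {v})

/-- The elements of `C(z)` that centralise `i` modulo `O(C(z))`. -/
def H0 (z i : G) : Subgroup G := th z ⊔ centralizer {i}

/-- The preimage `X` in `C(z)` of the normal subgroup `L₃(4)` of `C(z) / O(C(z)) ⟨i⟩`. -/
structure Hat (z i : G) (E X : Subgroup G) : Prop where
  ge : th z ⊔ E ≤ X
  le : X ≤ H0 z i
  norm : centralizer {z} ≤ normalizer (X : Set G)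
  iso : ∃ (F : Type) (_ : Field F) (_ : Fintype F), Fintype.card F = 4 ∧
    ∃ π : X →* Matrix.ProjectiveSpecialLinearGroup (Fin 3) F, Function.Surjective π ∧
      ∀ m : X, π m = 1 ↔ (m : G) ∈ th z ⊔ zpowers i
  cent : ∀ h ∈ H0 z i, (∀ m ∈ X, ⁅h, m⁆ ∈ th z ⊔ zpowers i) → h ∈ th z ⊔ zpowers i

end Cfsg.Agent.R3
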