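import Mathlib
import Cfsg.Agent.R3.Defs

/-! The frame: elementary facts (piece R3-Basic). See `stubs/Cfsg/Agent/R3/PLAN.md`. -/

set_option autoImplicit false
set_option linter.unusedSectionVars false
set_option linter.unusedVariables false

namespace Cfsg.Agent.R3

open Cfsg.Agent.Inv.Fz Cfsg.Agent.GH Cfsg.Agent.NE Subgroup
open scoped commutatorElement

variable {G : Type*} [Group G] [Finite G]

namespace BsA

theorem ext_self {N : Subgroup G} {x : G} (h : x ∈ N) : ext N x = N :=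
  le_antisymm (ext_le.2 ⟨le_rfl, h⟩) (le_ext _ _)

theorem mem_ext' {N : Subgroup G} {x g : G} (hx : x ∈ normalizer (N : Set G)) (h2 : x * x ∈ N) :
    g ∈ ext N x ↔ g ∈ N ∨ ∃ n ∈ N, g = x * n := by
  rw [mem_ext hx h2]
  refine or_congr Iff.rfl ⟨fun h => ⟨(x * x)⁻¹ * (x * g), mul_mem (inv_mem h2) h, by group⟩, ?_⟩
  rintro ⟨n, hn, rfl⟩
  rw [← mul_assoc]; exact mul_mem h2 hn

theorem norm_of_cz {N : Subgroup G} {x : G} (h : Cz x N) : x ∈ normalizer (N : Set G) :=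
  mem_normalizer_of_conj_mem fun n hn => by rw [conj_eq_of_comm (h n hn)]; exact hn

theorem pair_eq (x y : G) : closure {x, y} = ext (ext ⊥ x) y := by
  refine le_antisymm ((closure_le _).2 ?_) (ext_le.2 ⟨ext_le.2 ⟨bot_le, subset_closure (by simp)⟩,
    subset_closure (by simp)⟩)
  rintro g (rfl | rfl)
  · exact le_ext _ _ (self_mem_ext _ _)
  · exact self_mem_ext _ _

theorem triple_eq (x y t : G) : closure {x, y, t} = ext (closure {x, y}) t := by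
  refine le_antisymm ((closure_le _).2 ?_) (ext_le.2 ⟨closure_mono (by intro g hg; simp at hg ⊢; tauto),
    subset_closure (by simp)⟩)
  rintro g (rfl | rfl | rfl)
  · exact le_ext _ _ (subset_closure (by simp))
  · exact le_ext _ _ (subset_closure (by simp))
  · exact self_mem_ext _ _

theorem mem_one {x g : G} (hx : x * x = 1) : g ∈ ext ⊥ x ↔ g = 1 ∨ g = x := by
  rw [mem_ext' (norm_of_cz fun r hr => by rw [mem_bot.1 hr]; simp) (by rw [hx]; exact one_mem _)]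
  simp

theorem mem_four {x y u : G} (hx : x * x = 1) (hy : y * y = 1) (hc : x * y = y * x) :
    u ∈ closure {x, y} ↔ u = 1 ∨ u = x ∨ u = y ∨ u = x * y := by
  rw [pair_eq, mem_ext' (norm_of_cz fun r hr => by rcases (mem_one hx).1 hr with rfl | rfl <;> simp [hc])
    (by rw [hy]; exact one_mem _), mem_one hx, or_assoc]
  refine or_congr Iff.rfl (or_congr Iff.rfl ⟨?_, ?_⟩)
  · rintro ⟨n, hn, rfl⟩
    rcases (mem_one hx).1 hn with rfl | rfl <;> simp [hc]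
  · rintro (rfl | rfl)
    · exact ⟨1, one_mem _, by simp⟩
    · exact ⟨x, self_mem_ext _ _, hc⟩

open Classical in
theorem card_one {x : G} (hx : x * x = 1) : Nat.card (ext ⊥ x : Subgroup G) = if x = 1 then 1 else 2 := by
  split_ifs with h
  · rw [ext_self (mem_bot.2 h)]; simp
  · rw [(ext_elem (A := ⊥) (by simp) hx (by simp)).2.2 (by simpa using h)]; simp

theorem sq_four {x y : G} (hx : x * x = 1) (hy : y * y = 1) (hc : x * y = y * x) :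
    ∀ u ∈ closure {x, y}, u * u = 1 := by
  intro u hu
  rcases (mem_four hx hy hc).1 hu with rfl | rfl | rfl | rfl
  · simp
  · exact hx
  · exact hy
  · rw [mul_assoc, ← comm_assoc hc, hy, mul_one, hx]

open Classical in
theorem card_four {x y : G} (hx : x * x = 1) (hy : y * y = 1) (hc : x * y = y * x) :
    Nat.card (closure {x, y} : Subgroup G) = if y = 1 ∨ y = x then (if x = 1 then 1 else 2) else
      (if x = 1 then 2 else 4) := by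
  rw [pair_eq]
  by_cases h : y = 1 ∨ y = x
  · rw [if_pos h, ext_self ((mem_one hx).2 h), card_one hx]
  · rw [if_neg h, (ext_elem (A := ext ⊥ x) (fun a ha => by rcases (mem_one hx).1 ha with rfl | rfl <;> simp [hx]) hy
      (fun a ha => by rcases (mem_one hx).1 ha with rfl | rfl <;> simp [hc])).2.2 (mt (mem_one hx).1 h), card_one hx]
    split_ifs <;> rfl

theorem el_four {x y : G} (hx : x * x = 1) (hy : y * y = 1) (hc : x * y = y * x) (h1 : x ≠ 1) (h2 : y ≠ 1)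
    (h3 : y ≠ x) : El 4 (closure {x, y}) :=
  ⟨by rw [card_four hx hy hc]; simp [h1, h2, h3], sq_four hx hy hc⟩

theorem el_ext {n : ℕ} {A : Subgroup G} (h : El n A) {g : G} (g2 : g * g = 1) (hc : Cz g A) (hg : g ∉ A) :
    El (2 * n) (ext A g) :=
  let ⟨_, h2, h3⟩ := ext_elem h.sq g2 hc
  ⟨by rw [h3 hg, h.card], h2⟩

theorem eq_of_card {A B : Subgroup G} (h : A ≤ B) (hc : Nat.card A = Nat.card B) : A = B :=
  eq_of_le_of_card_ge h hc.ge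

theorem norm_inf {A B : Subgroup G} {g : G} (h1 : g ∈ normalizer (A : Set G)) (h2 : g ∈ normalizer (B : Set G)) :
    g ∈ normalizer ((A ⊓ B : Subgroup G) : Set G) := by
  rw [← cj_eq_iff] at *
  rw [cj_inf, h1, h2]

theorem norm_closure {s : Set G} {g : G} (h : ∀ x ∈ s, g * x * g⁻¹ ∈ closure s) :
    g ∈ normalizer ((closure s : Subgroup G) : Set G) := by
  rw [← cj_eq_iff]
  refine cj_eq_of_le ?_
  rw [cj_closure, closure_le]
  rintro _ ⟨x, hx, rfl⟩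
  exact h x hx

theorem cj_mem {K : Subgroup G} {g x : G} (hg : g ∈ normalizer (K : Set G)) (hx : x ∈ K) : g * x * g⁻¹ ∈ K :=
  (conj_mem_norm hg).2 hx

theorem cj_mem' {K : Subgroup G} {g x : G} (hg : g ∈ normalizer (K : Set G)) (hx : x ∈ K) : g⁻¹ * x * g ∈ K := by
  simpa using cj_mem (inv_mem hg) hx

end BsA

open BsA

theorem N16.mono {S T : Subgroup G} (h : N16 S) (hT : T ≤ S) : N16 T := fun A hA => h A (hA.trans hT)

/-- An involution centralising an `E₈` lies in it. -/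
theorem N16.mem {S A : Subgroup G} (h : N16 S) (hA : A ≤ S) (h8 : El 8 A) {g : G} (hg : g ∈ S) (g2 : g * g = 1)
    (hc : Cz g A) : g ∈ A := by
  by_contra hn
  have e := el_ext h8 g2 hc hn
  have := h _ (ext_le.2 ⟨hA, hg⟩) e.sq
  rw [e.card] at this
  omega

/-- Four commuting independent involutions do not exist. -/
theorem N16.four {S U : Subgroup G} (h : N16 S) (hU : U ≤ S) (h4 : El 4 U) {g k : G} (hg : g ∈ S) (hk : k ∈ S)
    (g2 : g * g = 1) (k2 : k * k = 1) (cg : Cz g U) (ck : Cz k U) (hc : g * k = k * g) :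
    g ∈ U ∨ k ∈ U ∨ g * k ∈ U := by
  by_cases hn : g ∈ U
  · exact Or.inl hn
  have m := (ext_elem h4.sq g2 cg).1
  refine Or.inr ((m k).1 (h.mem (ext_le.2 ⟨hU, hg⟩) (el_ext h4 g2 cg hn) hk k2 fun r hr => ?_))
  rcases (m r).1 hr with e | e
  · exact ck r e
  · have := ck _ e
    rw [← mul_assoc, ← hc, mul_assoc, mul_assoc] at this
    exact mul_left_cancel this

namespace Fr0

variable (f : Fr0 G)

theorem zV : f.z ∈ f.V := by rw [f.gen]; exact subset_closure (by simp)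
theorem wV : f.w ∈ f.V := by rw [f.gen]; exact subset_closure (by simp)
theorem aV : f.a ∈ f.V := by rw [f.gen]; exact subset_closure (by simp)
theorem zz : f.z * f.z = 1 := f.el.sq _ f.zV
theorem ww : f.w * f.w = 1 := f.el.sq _ f.wV
theorem aa : f.a * f.a = 1 := f.el.sq _ f.aV
theorem commV {u v : G} (hu : u ∈ f.V) (hv : v ∈ f.V) : u * v = v * u := comm_of_sq f.el.sq hu hv
theorem WV : f.W ≤ f.V := (closure_le _).2 (by rintro g (rfl | rfl); exacts [f.zV, f.wV])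
theorem zW : f.z ∈ f.W := subset_closure (by simp)
theorem wW : f.w ∈ f.W := subset_closure (by simp)
theorem mem_W {u : G} : u ∈ f.W ↔ u = 1 ∨ u = f.z ∨ u = f.w ∨ u = f.z * f.w :=
  mem_four f.zz f.ww (f.commV f.zV f.wV)
theorem V_eq : f.V = ext f.W f.a := by rw [f.gen, triple_eq]; rfl
theorem czaW : Cz f.a f.W := fun _ hr => f.commV f.aV (f.WV hr)
theorem sqW : ∀ u ∈ f.W, u * u = 1 := fun _ hu => f.el.sq _ (f.WV hu)

theorem indep : f.a ∉ f.W ∧ f.z ≠ 1 ∧ f.w ≠ 1 ∧ f.w ≠ f.z := by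
  have h1 := card_four f.zz f.ww (f.commV f.zV f.wV)
  have h2 := f.el.card
  rw [f.V_eq] at h2
  by_cases h : f.a ∈ f.W
  · rw [ext_self h, W, h1] at h2
    split_ifs at h2 <;> omega
  · rw [(ext_elem f.sqW f.aa f.czaW).2.2 h, W, h1] at h2
    split_ifs at h2 with h3 h4 h5 <;> first | omega | exact ⟨h, h5, (not_or.1 h3).1, (not_or.1 h3).2⟩

theorem z_ne : f.z ≠ 1 := f.indep.2.1
theorem w_ne : f.w ≠ 1 := f.indep.2.2.1
theorem w_ne_z : f.w ≠ f.z := f.indep.2.2.2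
theorem a_not : f.a ∉ f.W := f.indep.1
theorem zw_ne : f.z * f.w ≠ 1 := fun h => f.w_ne_z (mul_left_cancel (h.trans f.zz.symm))
theorem elW : El 4 f.W := el_four f.zz f.ww (f.commV f.zV f.wV) f.z_ne f.w_ne f.w_ne_z
theorem mem_V {v : G} : v ∈ f.V ↔ v ∈ f.W ∨ ∃ u ∈ f.W, v = f.a * u := by
  rw [f.V_eq, mem_ext' (norm_of_cz f.czaW) (by rw [f.aa]; exact one_mem _)]

theorem cz {g : G} (hg : g ∈ f.S) : g * f.z * g⁻¹ = f.z := conj_eq_of_comm (f.zc g hg).symm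

theorem actW {g u : G} (hg : g ∈ f.S) (hu : u ∈ f.W) : g * u * g⁻¹ = u ∨ g * u * g⁻¹ = u * f.z := by
  rcases f.mem_W.1 hu with rfl | rfl | rfl | rfl
  · simp
  · exact Or.inl (f.cz hg)
  · exact f.nW g hg
  · rw [conj_mul', f.cz hg, mul_assoc f.z]
    exact (f.nW g hg).imp (fun h => by rw [h]) fun h => by rw [h]

theorem nW' : f.S ≤ normalizer (f.W : Set G) := fun g hg => mem_normalizer_of_conj_mem fun u hu => by
  rcases f.actW hg hu with h | h <;> rw [h]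
  exacts [hu, mul_mem hu f.zW]

theorem mem_R' {r : G} : r ∈ f.R ↔ r ∈ f.S ∧ r * f.w * r⁻¹ = f.w := and_congr Iff.rfl Rec.mem_cen'

theorem mem_R {r : G} : r ∈ f.R ↔ r ∈ f.S ∧ Cz r f.W := by
  refine ⟨fun h => ⟨h.1, fun u hu => ?_⟩, fun h => ⟨h.1, Rec.mem_cen.2 (h.2 _ f.wW)⟩⟩
  have h1 := Rec.mem_cen.1 h.2
  have h2 := f.zc r h.1
  rcases f.mem_W.1 hu with rfl | rfl | rfl | rfl
  · simp
  · exact h2.symm
  · exact h1
  · rw [← mul_assoc, ← h2, mul_assoc, h1, mul_assoc]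

theorem fixR {r u : G} (hr : r ∈ f.R) (hu : u ∈ f.W) : r * u * r⁻¹ = u := conj_eq_of_comm ((f.mem_R.1 hr).2 u hu)

theorem mem_C' {c : G} : c ∈ f.C ↔ c ∈ f.S ∧ Cz c f.V :=
  ⟨fun h => ⟨h.1, f.cz_of_mem_C h⟩, fun h => ⟨h.1, mem_centralizer_iff.2 fun v hv => (h.2 v hv).symm⟩⟩

theorem fixC {c v : G} (hc : c ∈ f.C) (hv : v ∈ f.V) : c * v * c⁻¹ = v := conj_eq_of_comm (f.cz_of_mem_C hc v hv)

theorem mem_C {c : G} : c ∈ f.C ↔ c ∈ f.R ∧ c * f.a * c⁻¹ = f.a := by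
  refine ⟨fun h => ⟨f.mem_R'.2 ⟨h.1, f.fixC h f.wV⟩, f.fixC h f.aV⟩, fun h => f.mem_C'.2 ⟨h.1.1, fun v hv => ?_⟩⟩
  refine comm_of_conj_eq ?_
  rcases f.mem_V.1 hv with hu | ⟨u, hu, rfl⟩
  · exact f.fixR h.1 hu
  · rw [conj_mul', h.2, f.fixR h.1 hu]

theorem act_N {g : G} (h1 : g ∈ normalizer (f.V : Set G)) (h2 : g ∈ normalizer (f.W : Set G)) :
    ∃ u ∈ f.W, g * f.a * g⁻¹ = f.a * u :=
  (f.mem_V.1 (cj_mem h1 f.aV)).resolve_left fun h => f.a_not ((conj_mem_norm h2).1 h)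

theorem act_S {g : G} (hg : g ∈ f.S) : ∃ u ∈ f.W, g * f.a * g⁻¹ = f.a * u := f.act_N (f.nV hg) (f.nW' hg)

theorem mem_E {e : G} : e ∈ f.E ↔ e ∈ f.S ∧ (e * f.a * e⁻¹ = f.a ∨ e * f.a * e⁻¹ = f.a * f.z) := by
  have m : ∀ u, u ∈ closure {f.z, f.a} ↔ _ := fun u => mem_four (u := u) f.zz f.aa (f.commV f.zV f.aV)
  refine ⟨fun h => ⟨h.1, ?_⟩, fun h => ⟨h.1, norm_closure ?_⟩⟩
  · rcases (m _).1 (cj_mem h.2 (subset_closure (show f.a ∈ ({f.z, f.a} : Set G) by simp))) with e1 | e1 | e1 | e1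
    · exact absurd ((conj_mem_norm (f.nW' h.1)).1 (e1 ▸ one_mem _)) f.a_not
    · exact absurd ((conj_mem_norm (f.nW' h.1)).1 (e1 ▸ f.zW)) f.a_not
    · exact Or.inl e1
    · exact Or.inr (e1.trans (f.commV f.zV f.aV))
  · rintro x (rfl | rfl)
    · rw [f.cz h.1, m]; simp
    · rcases h.2 with e1 | e1 <;> rw [e1, m] <;> simp [f.commV f.zV f.aV]

theorem mem_E' {e : G} : e ∈ f.E ↔ e ∈ f.S ∧ ∀ v ∈ f.V, e * v * e⁻¹ = v ∨ e * v * e⁻¹ = v * f.z := by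
  refine ⟨fun h => ⟨h.1, fun v hv => ?_⟩, fun h => f.mem_E.2 ⟨h.1, h.2 _ f.aV⟩⟩
  rcases f.mem_V.1 hv with hu | ⟨u, hu, rfl⟩
  · exact f.actW h.1 hu
  · have c := f.commV f.zV (f.WV hu)
    rw [conj_mul']
    rcases (f.mem_E.1 h).2 with e1 | e1 <;> rcases f.actW h.1 hu with e2 | e2 <;> rw [e1, e2]
    · exact Or.inl rfl
    · exact Or.inr (mul_assoc _ _ _).symm
    · exact Or.inr (by rw [mul_assoc, mul_assoc, c])
    · exact Or.inl (by rw [mul_assoc, comm_assoc c, f.zz, mul_one])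

theorem VC : f.V ≤ f.C := fun v hv => f.mem_C'.2 ⟨f.VS hv, fun _ hu => f.commV hv hu⟩
theorem CR : f.C ≤ f.R := fun _ h => (f.mem_C.1 h).1
theorem CE : f.C ≤ f.E := fun _ h => f.mem_E.2 ⟨h.1, Or.inl (f.mem_C.1 h).2⟩
theorem RS : f.R ≤ f.S := inf_le_left
theorem ES : f.E ≤ f.S := inf_le_left
theorem CS : f.C ≤ f.S := inf_le_left

theorem R_eq : f.R = f.S ⊓ centralizer (f.W : Set G) := by
  ext r
  rw [f.mem_R, mem_inf, mem_centralizer_iff]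
  exact and_congr Iff.rfl ⟨fun h u hu => (h u hu).symm, fun h u hu => (h u hu).symm⟩

theorem C_eq : f.C = f.R ⊓ centralizer (f.V : Set G) :=
  le_antisymm (le_inf f.CR inf_le_right) (inf_le_inf_right _ f.RS)

theorem nR : f.S ≤ normalizer (f.R : Set G) := fun g hg => by
  rw [f.R_eq]; exact norm_inf (le_normalizer hg) (normalizer_le_normalizer_centralizer _ (f.nW' hg))
theorem nC : f.S ≤ normalizer (f.C : Set G) := fun g hg =>
  norm_inf (le_normalizer hg) (normalizer_le_normalizer_centralizer _ (f.nV hg))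
theorem nE : f.S ≤ normalizer (f.E : Set G) := fun g hg => mem_normalizer_of_conj_mem fun e he => by
  refine f.mem_E'.2 ⟨cj_mem (le_normalizer hg) he.1, fun v hv => ?_⟩
  have h1 : g * e * g⁻¹ * v * (g * e * g⁻¹)⁻¹ = g * (e * (g⁻¹ * v * g) * e⁻¹) * g⁻¹ := by group
  rw [h1]
  rcases (f.mem_E'.1 he).2 _ (cj_mem' (f.nV hg) hv) with h | h <;> rw [h]
  · exact Or.inl (by group)
  · exact Or.inr (by rw [conj_mul', f.cz hg]; group)
theorem SM : f.S ≤ f.M := fun _ hg => ⟨f.nC hg, f.nV hg⟩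
theorem yR' : f.y ∈ normalizer (f.R : Set G) := f.yR
theorem yW : f.y ∈ normalizer (f.W : Set G) := norm_closure (by
  rintro x (rfl | rfl)
  · rw [f.yz]; exact f.wW
  · rw [f.yw]; exact mul_mem f.zW f.wW)
theorem yV : f.y ∈ normalizer (f.V : Set G) := mem_normalizer_of_conj_mem fun v hv => by
  rcases f.mem_V.1 hv with hu | ⟨u, hu, rfl⟩
  · exact f.WV (cj_mem f.yW hu)
  · rw [conj_mul', f.ya]; exact mul_mem f.aV (f.WV (cj_mem f.yW hu))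
theorem yC : f.y ∈ normalizer (f.C : Set G) := by
  rw [f.C_eq]; exact norm_inf f.yR' (normalizer_le_normalizer_centralizer _ f.yV)
theorem yM : f.y ∈ f.M := ⟨f.yC, f.yV⟩

/-- `Ω₁(C) = V`. -/
theorem inv_C {c : G} (hc : c ∈ f.C) (h2 : c * c = 1) : c ∈ f.V :=
  f.n16.mem f.VS f.el hc.1 h2 (f.cz_of_mem_C hc)
theorem act_R {r : G} (hr : r ∈ f.R) : ∃ u ∈ f.W, r * f.a * r⁻¹ = f.a * u := f.act_S hr.1

theorem cov0 : ∃ r ∈ f.R, r * f.a * r⁻¹ = f.a * f.z :=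
  let ⟨r, h1, h2, h3⟩ := f.cov
  ⟨r, ⟨h1, Rec.mem_cen.2 h2⟩, h3⟩

theorem cov_all {u : G} (hu : u ∈ f.W) : ∃ r ∈ f.R, r * f.a * r⁻¹ = f.a * u := by
  obtain ⟨r, hr, h⟩ := f.cov0
  have h1 : f.y * r * f.y⁻¹ * f.a * (f.y * r * f.y⁻¹)⁻¹ = f.a * f.w := by
    have : f.y * r * f.y⁻¹ * (f.y * f.a * f.y⁻¹) * (f.y * r * f.y⁻¹)⁻¹ = f.y * (r * f.a * r⁻¹) * f.y⁻¹ := by group
    rwa [h, conj_mul' f.y f.a, f.ya, f.yz] at this
  rcases f.mem_W.1 hu with rfl | rfl | rfl | rfl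
  · exact ⟨1, one_mem _, by simp⟩
  · exact ⟨r, hr, h⟩
  · exact ⟨_, cj_mem f.yR' hr, h1⟩
  · refine ⟨_, mul_mem hr (cj_mem f.yR' hr), ?_⟩
    rw [← conj_conj, h1, conj_mul', h, f.fixR hr f.wW, mul_assoc]

theorem sq_R {r : G} (hr : r ∈ f.R) : r * r ∈ f.C := by
  obtain ⟨u, hu, h⟩ := f.act_R hr
  refine f.mem_C.2 ⟨mul_mem hr hr, ?_⟩
  rw [← conj_conj, h, conj_mul', h, f.fixR hr hu, mul_assoc, f.sqW u hu, mul_one]

theorem sq_E {e : G} (he : e ∈ f.E) : e * e ∈ f.C := by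
  refine f.mem_C'.2 ⟨mul_mem he.1 he.1, fun v hv => comm_of_conj_eq ?_⟩
  rw [← conj_conj]
  rcases (f.mem_E'.1 he).2 v hv with h | h
  · rw [h, h]
  · rw [h, conj_mul', h, f.cz he.1, mul_assoc, f.zz, mul_one]

theorem not_R {g : G} (hg : g ∈ f.S) (h : g ∉ f.R) : g * f.w * g⁻¹ = f.w * f.z :=
  (f.nW g hg).resolve_left fun e => h (f.mem_R'.2 ⟨hg, e⟩)

theorem mul_R {g h : G} (hg : g ∈ f.S) (hh : h ∈ f.S) (g1 : g ∉ f.R) (h1 : h ∉ f.R) : g * h ∈ f.R := by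
  refine f.mem_R'.2 ⟨mul_mem hg hh, ?_⟩
  rw [← conj_conj, f.not_R hh h1, conj_mul', f.not_R hg g1, f.cz hg, mul_assoc, f.zz, mul_one]

theorem fixW_out {g u : G} (hg : g ∈ f.S) (h : g ∉ f.R) (hu : u ∈ f.W) (e : g * u * g⁻¹ = u) : u = 1 ∨ u = f.z := by
  rcases f.mem_W.1 hu with rfl | rfl | rfl | rfl
  · exact Or.inl rfl
  · exact Or.inr rfl
  · exact absurd (f.mem_R'.2 ⟨hg, e⟩) h
  · rw [conj_mul', f.cz hg] at e
    exact absurd (f.mem_R'.2 ⟨hg, mul_left_cancel e⟩) h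

theorem E_of {g u : G} (hg : g ∈ f.S) (e : g * f.a * g⁻¹ = f.a * u) (h : u = 1 ∨ u = f.z) : g ∈ f.E :=
  f.mem_E.2 ⟨hg, h.imp (fun h => by rw [e, h, mul_one]) fun h => by rw [e, h]⟩

/-- An element whose square centralises `V` acts as a transvection. -/
theorem R_or_E {t : G} (ht : t ∈ f.S) (h2 : t * t ∈ f.C) : t ∈ f.R ∨ t ∈ f.E := by
  by_cases h : t ∈ f.R
  · exact Or.inl h
  obtain ⟨u, hu, e⟩ := f.act_S ht
  refine Or.inr (f.E_of ht e (f.fixW_out ht h hu ?_))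
  have := f.fixC h2 f.aV
  rw [← conj_conj, e, conj_mul', e, mul_assoc, mul_eq_left] at this
  exact mul_left_cancel (this.trans (f.sqW u hu).symm)

theorem fixV_out {e v : G} (he : e ∈ f.S) (h1 : e ∉ f.R) (h2 : e ∉ f.E) (hv : v ∈ f.V) (h : e * v * e⁻¹ = v) :
    v = 1 ∨ v = f.z := by
  rcases f.mem_V.1 hv with hu | ⟨u, hu, rfl⟩
  · exact f.fixW_out he h1 hu h
  · refine absurd (f.mem_E.2 ⟨he, ?_⟩) h2
    rw [conj_mul'] at h
    rcases f.actW he hu with e1 | e1 <;> rw [e1] at h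
    · exact Or.inl (mul_right_cancel h)
    · refine Or.inr (mul_right_cancel (b := u * f.z) ?_)
      rw [h, mul_assoc, comm_assoc (f.commV f.zV (f.WV hu)), f.zz, mul_one]

theorem fixV_R {t v : G} (ht : t ∈ f.R) (h1 : t ∉ f.C) (hv : v ∈ f.V) (h : t * v * t⁻¹ = v) : v ∈ f.W := by
  rcases f.mem_V.1 hv with hu | ⟨u, hu, rfl⟩
  · exact hu
  · rw [conj_mul', f.fixR ht hu] at h
    exact absurd (f.mem_C.2 ⟨ht, mul_right_cancel h⟩) h1

theorem fix_rot {x u : G} (h1 : x * f.z * x⁻¹ = f.w) (h2 : x * f.w * x⁻¹ = f.z * f.w) (hu : u ∈ f.W)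
    (h : x * u * x⁻¹ = u) : u = 1 := by
  rcases f.mem_W.1 hu with rfl | rfl | rfl | rfl
  · rfl
  · exact absurd (h1.symm.trans h) f.w_ne_z
  · exact absurd (mul_eq_right.1 (h2.symm.trans h)) f.z_ne
  · rw [conj_mul', h1, h2] at h
    exact absurd (mul_eq_right.1 h) f.w_ne

/-- The fixed points of `y` in `R` centralise `V`, and `a` is their only involution. -/
theorem fix_y {d : G} (hd : d ∈ f.R) (hy : f.y * d = d * f.y) : d ∈ f.C ∧ (d * d = 1 → d = 1 ∨ d = f.a) := by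
  have k : ∀ u ∈ f.W, f.y * (f.a * u) * f.y⁻¹ = f.a * u → u = 1 := fun u hu h => by
    rw [conj_mul', f.ya] at h
    exact f.fix_rot f.yz f.yw hu (mul_left_cancel h)
  have hC : d ∈ f.C := by
    obtain ⟨u, hu, e⟩ := f.act_R hd
    have : u = 1 := k u hu (by rw [← e, conj_conj, hy, ← conj_conj, f.ya])
    exact f.mem_C.2 ⟨hd, by rw [e, this, mul_one]⟩
  refine ⟨hC, fun h => ?_⟩
  rcases f.mem_V.1 (f.inv_C hC h) with hu | ⟨u, hu, e⟩
  · exact Or.inl (f.fix_rot f.yz f.yw hu (conj_eq_of_comm hy))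
  · exact Or.inr (by rw [e, k u hu (e ▸ conj_eq_of_comm hy), mul_one])

theorem z_mem {A : Subgroup G} (hA : A ≤ f.S) (h8 : El 8 A) : f.z ∈ A :=
  f.n16.mem hA h8 (f.VS f.zV) f.zz fun r hr => f.zc r (hA hr)

/-- Position (b). -/
theorem typeB {A : Subgroup G} (hA : A ≤ f.S) (h8 : El 8 A) (h : ∀ v ∈ f.V, v ∈ A → v = 1 ∨ v = f.z) :
    A ≤ f.E ∧ (∃ t ∈ A, t ∈ f.R ∧ t * f.a * t⁻¹ = f.a * f.z) ∧ (∃ s ∈ A, s ∉ f.R ∧ s * f.a * s⁻¹ = f.a) ∧
      (∀ e ∈ f.S, Cz e A → ∃ α ∈ A, ∃ k ∈ f.C, Cz k A ∧ e = α * k) ∧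
      ∀ v ∈ f.V, Cz v A → v = 1 ∨ v = f.z := by
  have h5 : ∀ v ∈ f.V, Cz v A → v = 1 ∨ v = f.z := fun v hv hc =>
    h v hv (f.n16.mem hA h8 (f.VS hv) (f.el.sq v hv) hc)
  have re : ∀ α ∈ A, α ∉ f.R → α ∈ f.E := fun α hα h1 =>
    (f.R_or_E (hA hα) (by rw [h8.sq α hα]; exact one_mem _)).resolve_left h1
  obtain ⟨s0, s1, s2⟩ : ∃ s ∈ A, s ∉ f.R := by
    by_contra! hn
    rcases h5 _ f.wV (fun r hr => ((f.mem_R.1 (hn r hr)).2 _ f.wW).symm) with e | e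
    exacts [f.w_ne e, f.w_ne_z e]
  have hE : A ≤ f.E := fun α hα => by
    by_cases h1 : α ∈ f.R
    · exact (mul_mem_cancel_right (re _ s1 s2)).1 (re _ (mul_mem hα s1) (mt (mul_mem_cancel_left h1).1 s2))
    · exact re α hα h1
  obtain ⟨t, t1, t2, t3⟩ : ∃ t ∈ A, t ∈ f.R ∧ t * f.a * t⁻¹ = f.a * f.z := by
    by_contra! hn
    have hc : ∀ t ∈ A, t ∈ f.R → t ∈ f.C := fun t t1 t2 =>
      f.mem_C.2 ⟨t2, ((f.mem_E.1 (hE t1)).2).resolve_right (hn t t1 t2)⟩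
    obtain ⟨u, hu, e⟩ : ∃ u ∈ f.W, s0 * (f.a * u) * s0⁻¹ = f.a * u := by
      rcases (f.mem_E.1 (hE s1)).2 with e | e
      · exact ⟨1, one_mem _, by rw [mul_one, e]⟩
      · exact ⟨f.w, f.wW, by
          rw [conj_mul', e, f.not_R (hA s1) s2, mul_assoc, comm_assoc (f.commV f.zV f.wV), f.zz, mul_one]⟩
    have hv := mul_mem f.aV (f.WV hu)
    have cz : Cz (f.a * u) A := fun α hα => by
      refine (comm_of_conj_eq ?_).symm
      by_cases h1 : α ∈ f.R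
      · exact f.fixC (hc α hα h1) hv
      · have := f.fixC (hc _ (mul_mem hα s1) (f.mul_R (hA hα) (hA s1) h1 s2)) hv
        rwa [← conj_conj, e] at this
    have : f.a * u ∈ f.W := by
      rcases h5 _ hv cz with e1 | e1
      · rw [e1]; exact one_mem _
      · rw [e1]; exact f.zW
    exact f.a_not ((mul_mem_cancel_right hu).1 this)
  have az : ∀ g k : G, g ∈ f.S → g * f.a * g⁻¹ = f.a * f.z → k * f.a * k⁻¹ = f.a * f.z →
      g * k * f.a * (g * k)⁻¹ = f.a := fun g k hg e1 e2 => by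
    rw [← conj_conj, e2, conj_mul', e1, f.cz hg, mul_assoc, f.zz, mul_one]
  obtain ⟨s, s3, s4, s5⟩ : ∃ s ∈ A, s ∉ f.R ∧ s * f.a * s⁻¹ = f.a := by
    rcases (f.mem_E.1 (hE s1)).2 with e | e
    · exact ⟨s0, s1, s2, e⟩
    · exact ⟨s0 * t, mul_mem s1 t1, mt (mul_mem_cancel_right t2).1 s2, az _ _ (hA s1) e t3⟩
  refine ⟨hE, ⟨t, t1, t2, t3⟩, ⟨s, s3, s4, s5⟩, fun e he hc => ?_, h5⟩
  have fin : ∀ α ∈ A, α * e ∈ f.R → α * e * f.a * (α * e)⁻¹ = f.a → ∃ α ∈ A, ∃ k ∈ f.C, Cz k A ∧ e = α * k :=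
    fun α hα h1 h2 => ⟨α, hα, α * e, f.mem_C.2 ⟨h1, h2⟩, fun r hr => by
      rw [mul_assoc, hc r hr, ← mul_assoc, comm_of_sq h8.sq hα hr, mul_assoc], (sq_cancel (h8.sq α hα) e).symm⟩
  have eE : e ∈ f.E := by
    obtain ⟨u, hu, e1⟩ := f.act_S he
    refine f.E_of he e1 (f.fixW_out (hA s3) s4 hu ?_)
    have : s * (e * f.a * e⁻¹) * s⁻¹ = e * f.a * e⁻¹ := by rw [conj_conj, ← hc s s3, ← conj_conj, s5]
    rw [e1, conj_mul', s5] at this
    exact mul_left_cancel this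
  by_cases h1 : e ∈ f.R <;> rcases (f.mem_E.1 eE).2 with e1 | e1
  · exact fin 1 (one_mem _) (by simpa using h1) (by simpa using e1)
  · exact fin t t1 (mul_mem t2 h1) (az _ _ (hA t1) t3 e1)
  · exact fin s s3 (f.mul_R (hA s3) he s4 h1) (by rw [← conj_conj, e1, s5])
  · refine fin (s * t) (mul_mem s3 t1) (f.mul_R (hA (mul_mem s3 t1)) he (mt (mul_mem_cancel_right t2).1 s4) h1) ?_
    rw [mul_assoc s, ← conj_conj, az _ _ (hA t1) t3 e1, s5]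

theorem sq_C_of {e v : G} (he : e ∈ f.S) (hv : v ∈ f.V) (h1 : v ≠ 1) (h2 : v ≠ f.z) (h : e * v = v * e) :
    e * e ∈ f.C := by
  by_cases r1 : e ∈ f.R
  · exact f.sq_R r1
  by_cases r2 : e ∈ f.E
  · exact f.sq_E r2
  exact absurd (f.fixV_out he r1 r2 hv (conj_eq_of_comm h)) (not_or.2 ⟨h1, h2⟩)

/-- The square of an element of order four that centralises an `E₈` lies in `V`. -/
theorem sq_mem {A : Subgroup G} (hA : A ≤ f.S) (h8 : El 8 A) {e : G} (he : e ∈ f.S) (hc : Cz e A)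
    (h4 : e * e * (e * e) = 1) : e * e ∈ f.V := by
  refine f.inv_C ?_ h4
  by_cases h : ∀ v ∈ f.V, v ∈ A → v = 1 ∨ v = f.z
  · obtain ⟨α, hα, k, hk, -, rfl⟩ := (f.typeB hA h8 h).2.2.2.1 e he hc
    exact f.sq_E (mul_mem ((f.typeB hA h8 h).1 hα) (f.CE hk))
  · push Not at h
    obtain ⟨v, hv, h0, h1, h2⟩ := h
    exact f.sq_C_of he hv h1 h2 (hc v h0)

/-- Position (a). -/
theorem typeA {A : Subgroup G} (hA : A ≤ f.S) (h8 : El 8 A) (hne : A ≠ f.V) {v : G} (hv : v ∈ f.V) (hvA : v ∈ A)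
    (h1 : v ≠ 1) (h2 : v ≠ f.z) : A ⊓ f.V = closure {f.z, v} ∧ ∃ t ∈ A, t ∉ f.C ∧ A = closure {f.z, v, t} ∧
      ∀ e ∈ f.S, Cz e A → e * e ∈ f.C := by
  have eU := el_four f.zz (f.el.sq v hv) (f.commV f.zV hv) f.z_ne h1 h2
  have le : closure {f.z, v} ≤ A ⊓ f.V := (closure_le _).2 (by
    rintro g (rfl | rfl)
    exacts [⟨f.z_mem hA h8, f.zV⟩, ⟨hvA, hv⟩])
  have key : ∀ t ∈ A, t ∉ closure {f.z, v} → ext (closure {f.z, v}) t = A := fun t ht hn =>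
    eq_of_card (ext_le.2 ⟨le.trans inf_le_left, ht⟩) (by
      rw [(el_ext eU (h8.sq t ht) (fun r hr => comm_of_sq h8.sq ht (le hr).1) hn).card, h8.card])
  have nle : ¬ A ≤ f.V := fun h => hne (eq_of_card h (by rw [h8.card, f.el.card]))
  refine ⟨le_antisymm (fun t ht => ?_) le, ?_⟩
  · by_contra hn
    exact nle (key t ht.1 hn ▸ ext_le.2 ⟨le.trans inf_le_right, ht.2⟩)
  · obtain ⟨t, ht, hn⟩ := SetLike.not_le_iff_exists.1 nle
    exact ⟨t, ht, fun h => hn (f.inv_C h (h8.sq t ht)), by rw [triple_eq, key t ht fun h => hn (le h).2],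
      fun e he hc => f.sq_C_of he hv h1 h2 (hc v hvA)⟩

theorem lC' : f.l ∈ f.C := f.mem_C'.2 ⟨f.lS, f.lC⟩
theorem bC : f.b ∈ f.C := cj_mem f.yC f.lC'
theorem bb : f.b * f.b = f.w := by rw [b, ← conj_mul', f.ll, f.yz]
theorem lb : f.l * f.b = f.b * f.l := f.lc
theorem yl : f.y * f.l * f.y⁻¹ = f.b := rfl
theorem yb : f.y * f.b * f.y⁻¹ = (f.l * f.b)⁻¹ := eq_inv_of_mul_eq_one_right f.lp
theorem lL : f.l ∈ f.L := subset_closure (by simp)
theorem bL : f.b ∈ f.L := subset_closure (by simp)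
theorem aL : f.a ∈ f.L := subset_closure (by simp)
theorem lB : f.l ∈ f.B := subset_closure (by simp)
theorem bB : f.b ∈ f.B := subset_closure (by simp)
theorem BL : f.B ≤ f.L := (closure_le _).2 (by rintro g (rfl | rfl); exacts [f.lL, f.bL])
theorem WB : f.W ≤ f.B := (closure_le _).2 (by
  rintro g (rfl | rfl)
  · rw [← f.ll]; exact mul_mem f.lB f.lB
  · rw [← f.bb]; exact mul_mem f.bB f.bB)
theorem VL : f.V ≤ f.L := by rw [f.V_eq]; exact ext_le.2 ⟨f.WB.trans f.BL, f.aL⟩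
theorem LC : f.L ≤ f.C := (closure_le _).2 (by rintro g (rfl | rfl | rfl); exacts [f.lC', f.bC, f.VC f.aV])

section Tower
variable {N : Subgroup G} (h1 : f.W ≤ N) (h2 : N ≤ f.V)
include h1 h2

theorem tw1 : f.l ∈ normalizer (N : Set G) ∧ f.l * f.l ∈ N :=
  ⟨norm_of_cz fun r hr => f.lC r (h2 hr), f.ll ▸ h1 f.zW⟩

theorem tw2 : f.b ∈ normalizer ((ext N f.l : Subgroup G) : Set G) ∧ f.b * f.b ∈ ext N f.l := by
  refine ⟨norm_of_cz fun r hr => ?_, f.bb ▸ le_ext _ _ (h1 f.wW)⟩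
  have c := f.cz_of_mem_C f.bC
  rcases (mem_ext' (f.tw1 h1 h2).1 (f.tw1 h1 h2).2).1 hr with e | ⟨n, hn, rfl⟩
  · exact c r (h2 e)
  · rw [← comm_assoc f.lb, c n (h2 hn), mul_assoc]

theorem tw_mem {m : G} : m ∈ ext (ext N f.l) f.b ↔
    ∃ v ∈ N, m = v ∨ m = f.l * v ∨ m = f.b * v ∨ m = f.l * f.b * v := by
  have k : ∀ g, g ∈ ext N f.l ↔ _ := fun g => mem_ext' (g := g) (f.tw1 h1 h2).1 (f.tw1 h1 h2).2
  rw [mem_ext' (f.tw2 h1 h2).1 (f.tw2 h1 h2).2]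
  constructor
  · rintro (h | ⟨n, h, rfl⟩) <;> rcases (k _).1 h with e | ⟨v, hv, rfl⟩
    · exact ⟨m, e, Or.inl rfl⟩
    · exact ⟨v, hv, by simp⟩
    · exact ⟨n, e, by simp⟩
    · exact ⟨v, hv, by rw [f.lb, mul_assoc]; simp⟩
  · rintro ⟨v, hv, rfl | rfl | rfl | rfl⟩
    · exact Or.inl ((k _).2 (Or.inl hv))
    · exact Or.inl ((k _).2 (Or.inr ⟨v, hv, rfl⟩))
    · exact Or.inr ⟨v, (k _).2 (Or.inl hv), rfl⟩
    · exact Or.inr ⟨f.l * v, (k _).2 (Or.inr ⟨v, hv, rfl⟩), by rw [f.lb, mul_assoc]⟩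

end Tower

theorem L_eq : f.L = ext (ext f.V f.l) f.b := by
  refine le_antisymm ((closure_le _).2 ?_) (ext_le.2 ⟨ext_le.2 ⟨f.VL, f.lL⟩, f.bL⟩)
  rintro g (rfl | rfl | rfl)
  exacts [le_ext _ _ (self_mem_ext _ _), self_mem_ext _ _, le_ext _ _ (le_ext _ _ f.aV)]

theorem B_eq : f.B = ext (ext f.W f.l) f.b := by
  refine le_antisymm ((closure_le _).2 ?_) (ext_le.2 ⟨ext_le.2 ⟨f.WB, f.lB⟩, f.bB⟩)
  rintro g (rfl | rfl)
  exacts [le_ext _ _ (self_mem_ext _ _), self_mem_ext _ _]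

theorem mem_L {m : G} : m ∈ f.L ↔ ∃ v ∈ f.V, m = v ∨ m = f.l * v ∨ m = f.b * v ∨ m = f.l * f.b * v := by
  rw [f.L_eq, f.tw_mem f.WV le_rfl]
theorem mem_B {m : G} : m ∈ f.B ↔ ∃ u ∈ f.W, m = u ∨ m = f.l * u ∨ m = f.b * u ∨ m = f.l * f.b * u := by
  rw [f.B_eq, f.tw_mem le_rfl f.WV]

theorem czL {g : G} (hg : g ∈ f.C) (h1 : g * f.l = f.l * g) (h2 : g * f.b = f.b * g) : Cz g f.L := by
  intro m hm
  obtain ⟨v, hv, rfl | rfl | rfl | rfl⟩ := f.mem_L.1 hm <;> have c := f.cz_of_mem_C hg _ hv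
  · exact c
  · rw [comm_assoc h1, c, mul_assoc]
  · rw [comm_assoc h2, c, mul_assoc]
  · rw [mul_assoc, comm_assoc h1, comm_assoc h2, c, mul_assoc, mul_assoc]

theorem commL {m k : G} (hm : m ∈ f.L) (hk : k ∈ f.L) : m * k = k * m :=
  f.czL (f.LC hm) (f.czL f.lC' rfl f.lb m hm).symm (f.czL f.bC f.lb.symm rfl m hm).symm k hk

theorem sq_mul {c v : G} (hc : c ∈ f.C) (hv : v ∈ f.V) : c * v * (c * v) = c * c := by
  rw [mul_assoc, ← comm_assoc (f.cz_of_mem_C hc v hv), f.el.sq v hv, mul_one]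

theorem sq_mulL {m k : G} (hm : m ∈ f.L) (hk : k ∈ f.L) : m * k * (m * k) = m * m * (k * k) := by
  rw [mul_assoc, ← comm_assoc (f.commL hm hk), mul_assoc]

theorem lblb : f.l * f.b * (f.l * f.b) = f.z * f.w := by rw [f.sq_mulL f.lL f.bL, f.ll, f.bb]

theorem sq_L {m : G} (hm : m ∈ f.L) : m * m ∈ f.W := by
  obtain ⟨v, hv, rfl | rfl | rfl | rfl⟩ := f.mem_L.1 hm
  · rw [f.el.sq _ hv]; exact one_mem _
  · rw [f.sq_mul f.lC' hv, f.ll]; exact f.zW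
  · rw [f.sq_mul f.bC hv, f.bb]; exact f.wW
  · rw [f.sq_mul (mul_mem f.lC' f.bC) hv, f.lblb]; exact mul_mem f.zW f.wW

theorem a_notB : f.a ∉ f.B := by
  intro h
  have h2 := f.aa
  obtain ⟨v, hv, e | e | e | e⟩ := f.mem_B.1 h
  · exact f.a_not (e ▸ hv)
  · rw [e, f.sq_mul f.lC' (f.WV hv), f.ll] at h2; exact f.z_ne h2
  · rw [e, f.sq_mul f.bC (f.WV hv), f.bb] at h2; exact f.w_ne h2
  · rw [e, f.sq_mul (mul_mem f.lC' f.bC) (f.WV hv), f.lblb] at h2; exact f.zw_ne h2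

theorem root_B {u : G} (hu : u ∈ f.W) : ∃ m ∈ f.B, m * m = u := by
  rcases f.mem_W.1 hu with rfl | rfl | rfl | rfl
  exacts [⟨1, one_mem _, mul_one _⟩, ⟨_, f.lB, f.ll⟩, ⟨_, f.bB, f.bb⟩, ⟨_, mul_mem f.lB f.bB, f.lblb⟩]

theorem eq_of_sq {m k : G} (hm : m ∈ f.L) (hk : k ∈ f.C) (hc : m * k = k * m) (h : k * k = m * m) :
    ∃ v ∈ f.V, k = m * v := by
  refine ⟨m⁻¹ * k, f.inv_C (mul_mem (inv_mem (f.LC hm)) hk) ?_, by group⟩
  have : k * m⁻¹ = m⁻¹ * k := ((show Commute m k from hc).inv_left).symm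
  rw [mul_assoc, comm_assoc this, h]; group

theorem card_L : Nat.card f.L = 32 := by
  have t1 := f.tw1 f.WV le_rfl
  have t2 := f.tw2 f.WV le_rfl
  rw [f.L_eq, card_ext t2.1 t2.2, card_ext t1.1 t1.2, f.el.card]
  · exact fun h => f.z_ne (f.ll ▸ f.el.sq _ h)
  · intro h
    rcases (mem_ext' t1.1 t1.2).1 h with e | ⟨v, hv, e⟩
    · exact f.w_ne (f.bb ▸ f.el.sq _ e)
    · exact f.w_ne_z (by rw [← f.bb, e, f.sq_mul f.lC' hv, f.ll])

theorem yB : f.y ∈ normalizer (f.B : Set G) := norm_closure (by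
  rintro x (rfl | rfl)
  · exact f.bB
  · rw [f.yb]; exact inv_mem (mul_mem f.lB f.bB))

theorem yL : f.y ∈ normalizer (f.L : Set G) := norm_closure (by
  rintro x (rfl | rfl | rfl)
  · exact f.bL
  · rw [f.yb]; exact inv_mem (mul_mem f.lL f.bL)
  · rw [f.ya]; exact f.aL)

theorem yK : f.M ≤ normalizer (f.K : Set G) := fun g hg => mem_normalizer_of_conj_mem fun c hc => by
  refine f.mem_K.2 ⟨cj_mem hg.1 hc.1, by rw [← conj_mul']; exact cj_mem hg.2 hc.2.1, fun d hd => ?_⟩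
  have : ⁅g * c * g⁻¹, d⁆ = g * ⁅c, g⁻¹ * d * g⁆ * g⁻¹ := by simp only [commutatorElement_def]; group
  rw [this]
  exact cj_mem hg.2 (hc.2.2 _ (cj_mem' hg.1 hd))

theorem act_l {g : G} (hg : g ∈ f.S) : ∃ v ∈ f.V, g * f.l * g⁻¹ = f.l * v :=
  ⟨_, f.lV g hg, by rw [f.lC _ (f.lV g hg)]; group⟩

theorem comm_RL {r m : G} (hr : r ∈ f.R) (hm : m ∈ f.L) : ∃ v ∈ f.V, r * m * r⁻¹ = m * v := by
  induction hm using closure_induction with
  | mem x hx =>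
    rcases hx with rfl | rfl | rfl
    · exact f.act_l hr.1
    · obtain ⟨v, hv, e⟩ := f.act_l (cj_mem' f.yR' hr).1
      refine ⟨_, cj_mem f.yV hv, ?_⟩
      rw [b, ← conj_mul', ← e]; group
    · obtain ⟨u, hu, e⟩ := f.act_R hr
      exact ⟨u, f.WV hu, e⟩
  | one => exact ⟨1, one_mem _, by simp⟩
  | mul x y hx hy h1 h2 =>
    obtain ⟨v, hv, e⟩ := h1
    obtain ⟨u, hu, e'⟩ := h2
    exact ⟨_, mul_mem hv hu, by rw [conj_mul', e, e', mul_assoc, comm_assoc (f.commL (f.VL hv) hy), mul_assoc]⟩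
  | inv x hx h1 =>
    obtain ⟨v, hv, e⟩ := h1
    refine ⟨_, inv_mem hv, ?_⟩
    rw [← mul_inv_rev, ← f.commL hx (f.VL hv), ← e]; group

theorem RL : f.R ≤ normalizer (f.L : Set G) := fun r hr => mem_normalizer_of_conj_mem fun m hm => by
  obtain ⟨v, hv, e⟩ := f.comm_RL hr hm
  rw [e]; exact mul_mem hm (f.VL hv)

theorem LK : f.L ≤ f.K := fun m hm => f.mem_K.2 ⟨f.LC hm, f.WV (f.sq_L hm), fun d hd => by
  obtain ⟨v, hv, e⟩ := f.comm_RL (f.CR hd) (inv_mem hm)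
  have : ⁅m, d⁆ = m * (d * m⁻¹ * d⁻¹) := by rw [commutatorElement_def]; group
  rw [this, e, mul_inv_cancel_left]; exact hv⟩

theorem cube_conj (x g : G) : x ^ 3 * g * (x ^ 3)⁻¹ = x * (x * (x * g * x⁻¹) * x⁻¹) * x⁻¹ := by
  simp only [pow_succ, pow_zero, one_mul, mul_inv_rev, mul_assoc]

theorem cube_W {x u : G} (h1 : x * f.z * x⁻¹ = f.w) (h2 : x * f.w * x⁻¹ = f.z * f.w) (hu : u ∈ f.W) :
    x ^ 3 * u * (x ^ 3)⁻¹ = u := by
  have h3 : x * (f.z * f.w) * x⁻¹ = f.z := by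
    rw [conj_mul', h1, h2, ← comm_assoc (f.commV f.zV f.wV), f.ww, mul_one]
  rw [cube_conj]
  rcases f.mem_W.1 hu with rfl | rfl | rfl | rfl
  · simp
  · rw [h1, h2, h3]
  · rw [h2, h3, h1]
  · rw [h3, h1, h2]

theorem ylb : f.y * (f.l * f.b)⁻¹ * f.y⁻¹ = f.l := by
  rw [← conj_inv, conj_mul', f.yl, f.yb]; group

theorem y_cube : Cz (f.y ^ 3) f.L := by
  intro m hm
  refine mem_centralizer_singleton_iff.1 ((closure_le (centralizer {f.y ^ 3})).2 ?_ hm) |>.symm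
  rintro x (rfl | rfl | rfl) <;> refine mem_centralizer_singleton_iff.2 (comm_of_conj_eq ?_).symm <;> rw [cube_conj]
  · rw [f.yl, f.yb, f.ylb]
  · rw [f.yb, f.ylb, f.yl]
  · rw [f.ya, f.ya, f.ya]

theorem L_cases {m : G} (hm : m ∈ f.L) : m ∈ f.B ∨ ∃ k ∈ f.B, m = k * f.a := by
  obtain ⟨v, hv, h⟩ := f.mem_L.1 hm
  rcases f.mem_V.1 hv with hu | ⟨u, hu, rfl⟩
  · exact Or.inl (f.mem_B.2 ⟨v, hu, h⟩)
  · rw [f.commV f.aV (f.WV hu)] at h
    refine Or.inr ⟨m * f.a, f.mem_B.2 ⟨u, hu, ?_⟩, by rw [mul_assoc, f.aa, mul_one]⟩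
    rcases h with rfl | rfl | rfl | rfl <;> simp [mul_assoc, f.aa]

theorem norm_mul {m k : G} (hm : m ∈ f.L) (hk : k ∈ f.L) :
    m * k * (f.y * (m * k) * f.y⁻¹) * (f.y⁻¹ * (m * k) * f.y) =
      m * (f.y * m * f.y⁻¹) * (f.y⁻¹ * m * f.y) * (k * (f.y * k * f.y⁻¹) * (f.y⁻¹ * k * f.y)) := by
  have e : f.y⁻¹ * (m * k) * f.y = f.y⁻¹ * m * f.y * (f.y⁻¹ * k * f.y) := by group
  rw [e, conj_mul']
  have m1 := cj_mem f.yL hm
  have m2 := cj_mem' f.yL hm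
  have k1 := cj_mem f.yL hk
  generalize f.y * m * f.y⁻¹ = p at *
  generalize f.y⁻¹ * m * f.y = q at *
  generalize f.y * k * f.y⁻¹ = r at *
  generalize f.y⁻¹ * k * f.y = s at *
  simp only [mul_assoc]
  rw [comm_assoc (f.commL hk m1), comm_assoc (f.commL k1 m2), comm_assoc (f.commL hk m2)]

theorem norm_B {m : G} (hm : m ∈ f.B) : m * (f.y * m * f.y⁻¹) * (f.y⁻¹ * m * f.y) = 1 := by
  induction hm using closure_induction with
  | mem x hx =>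
    rcases hx with rfl | rfl
    · have : f.y⁻¹ * f.l * f.y = (f.l * f.b)⁻¹ := by
        have := f.ylb
        rw [mul_inv_eq_iff_eq_mul] at this
        rw [mul_assoc, ← this, inv_mul_cancel_left]
      rw [this, f.yl, mul_inv_cancel]
    · have : f.y⁻¹ * f.b * f.y = f.l := by rw [b]; group
      rw [this, f.yb]; group
  | one => simp
  | mul x y hx hy h1 h2 => rw [f.norm_mul (f.BL hx) (f.BL hy), h1, h2, mul_one]
  | inv x hx h1 =>
    have := f.norm_mul (f.BL hx) (f.BL (inv_mem hx))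
    rw [h1, one_mul] at this
    rw [← this]; simp

/-- The norm of `y` on `L`. -/
theorem norm_y {m : G} (hm : m ∈ f.L) : (m ∈ f.B ∧ m * (f.y * m * f.y⁻¹) * (f.y⁻¹ * m * f.y) = 1) ∨
    (m ∉ f.B ∧ m * (f.y * m * f.y⁻¹) * (f.y⁻¹ * m * f.y) = f.a) := by
  rcases f.L_cases hm with h | ⟨k, hk, rfl⟩
  · exact Or.inl ⟨h, f.norm_B h⟩
  · refine Or.inr ⟨fun h => f.a_notB ((mul_mem_cancel_left hk).1 h), ?_⟩
    have : f.y⁻¹ * f.a * f.y = f.a := by rw [mul_assoc, ← comm_of_conj_eq f.ya, inv_mul_cancel_left]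
    rw [f.norm_mul (f.BL hk) f.aL, f.norm_B hk, this, f.ya, f.aa, one_mul, one_mul]

theorem fix_of_inv {t m v : G} (h2 : t * t = 1) (hv : v ∈ f.V) (e : t * m * t⁻¹ = m * v) : t * v * t⁻¹ = v := by
  have : t * (t * m * t⁻¹) * t⁻¹ = m := by rw [conj_conj, h2]; simp
  rw [e, conj_mul', e, mul_assoc, mul_eq_left] at this
  exact mul_left_cancel (this.trans (f.el.sq v hv).symm)

/-- An involution of `R` acts trivially on `L / W`. -/
theorem act_inv {t m : G} (ht : t ∈ f.R) (h2 : t * t = 1) (h1 : t ∉ f.C) (hm : m ∈ f.L) :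
    ∃ u ∈ f.W, t * m * t⁻¹ = m * u :=
  let ⟨v, hv, e⟩ := f.comm_RL ht hm
  ⟨v, f.fixV_R ht h1 hv (f.fix_of_inv h2 hv e), e⟩

theorem W_two {u v : G} (hu : u ∈ f.W) (hv : v ∈ f.W) (h1 : u ≠ 1) (h2 : v ≠ 1) (h3 : v ≠ u) :
    f.W = closure {u, v} :=
  (eq_of_card ((closure_le _).2 (by rintro g (rfl | rfl); exacts [hu, hv])) (by
    rw [f.elW.card, (el_four (f.sqW u hu) (f.sqW v hv) (f.commV (f.WV hu) (f.WV hv)) h1 h2 h3).card])).symm

theorem onto_or_fix {t : G} (ht : t ∈ f.R) (h2 : t * t = 1) (h1 : t ∉ f.C) : f.Onto t ∨ f.Fix t := by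
  obtain ⟨u0, hu0, e0⟩ := f.act_R ht
  have n0 : u0 ≠ 1 := fun h => h1 (f.mem_C.2 ⟨ht, by rw [e0, h, mul_one]⟩)
  have two : ∀ m ∈ f.L, ∀ u ∈ f.W, t * m * t⁻¹ = m * u → t * (m * f.a) * t⁻¹ = m * f.a * (u0 * u) :=
    fun m hm u hu e => by
      rw [conj_mul', e, e0, mul_assoc, mul_assoc, comm_assoc (f.commV (f.WV hu) f.aV), f.commV (f.WV hu) (f.WV hu0)]
  by_cases h : ∀ m ∈ f.L, t * m * t⁻¹ = m ∨ t * m * t⁻¹ = m * u0
  · refine Or.inr fun u hu => ?_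
    obtain ⟨m, hm, e⟩ := f.root_B hu
    rcases h m (f.BL hm) with e1 | e1
    · exact ⟨m, f.BL hm, e, comm_of_conj_eq e1⟩
    · refine ⟨m * f.a, mul_mem (f.BL hm) f.aL, by rw [f.sq_mul (f.LC (f.BL hm)) f.aV, e], comm_of_conj_eq ?_⟩
      rw [two m (f.BL hm) u0 hu0 e1, f.sqW u0 hu0, mul_one]
  · push Not at h
    obtain ⟨m, hm, n1, n2⟩ := h
    obtain ⟨u1, hu1, e1⟩ := f.act_inv ht h2 h1 hm
    refine Or.inl fun u hu => ?_
    rw [f.W_two hu0 hu1 n0 (fun h => n1 (by rw [e1, h, mul_one])) (fun h => n2 (by rw [e1, h])),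
      mem_four (f.sqW _ hu0) (f.sqW _ hu1) (f.commV (f.WV hu0) (f.WV hu1))] at hu
    rcases hu with rfl | rfl | rfl | rfl
    exacts [⟨1, one_mem _, by simp⟩, ⟨_, f.aL, e0⟩, ⟨m, hm, e1⟩, ⟨_, mul_mem hm f.aL, two m hm u1 hu1 e1⟩]

/-- If `t` is not onto, then `[L, t] = [V, t]`. -/
theorem act_fix {t m u : G} (ht : t ∈ f.R) (h2 : t * t = 1) (hf : f.Fix t) (hu : t * f.a * t⁻¹ = f.a * u)
    (hm : m ∈ f.L) : t * m * t⁻¹ = m ∨ t * m * t⁻¹ = m * u := by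
  obtain ⟨k, hk, e1, e2⟩ := hf _ (f.sq_L hm)
  obtain ⟨v, hv, rfl⟩ := f.eq_of_sq hk (f.LC hm) (f.commL hk hm) e1.symm
  have uV : u ∈ f.V := (mul_mem_cancel_left f.aV).1 (hu ▸ cj_mem (f.nV ht.1) f.aV)
  rw [conj_mul', conj_eq_of_comm e2]
  rcases f.mem_V.1 hv with h | ⟨u', h, rfl⟩
  · exact Or.inl (by rw [f.fixR ht h])
  · exact Or.inr (by rw [conj_mul', hu, f.fixR ht h, mul_assoc f.a, f.commV uV (f.WV h)]; group)

end Fr0

namespace Fr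

variable (f : Fr G)

theorem s_not : f.s ∉ f.R := fun h => f.z_ne (mul_eq_left.1 (f.sw.symm.trans (f.mem_R'.1 h).2))

theorem split {g : G} (hg : g ∈ f.S) (h : g ∉ f.R) : g * f.s⁻¹ ∈ f.R :=
  f.mul_R hg (inv_mem f.sS) h (mt inv_mem_iff.1 f.s_not)

theorem nL : f.S ≤ normalizer (f.L : Set G) := by
  have hs : f.s ∈ normalizer (f.L : Set G) := norm_closure (by
    have h1 : f.s * f.l * f.s⁻¹ ∈ f.L := by
      obtain ⟨v, hv, e⟩ := f.act_l f.sS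
      rw [e]; exact mul_mem f.lL (f.VL hv)
    rintro x (rfl | rfl | rfl)
    · exact h1
    · have : f.s * f.b * f.s⁻¹ = f.s * f.y * f.s⁻¹ * f.y * (f.y⁻¹ * (f.s * f.l * f.s⁻¹) * f.y) *
        (f.s * f.y * f.s⁻¹ * f.y)⁻¹ := by rw [Fr0.b]; group
      rw [this]
      exact cj_mem (f.RL f.sy) (cj_mem' f.yL h1)
    · rw [f.sa]; exact f.aL)
  intro g hg
  by_cases h : g ∈ f.R
  · exact f.RL h
  · simpa using mul_mem (f.RL (f.split hg h)) hs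

/-- `C_V(S) = ⟨z⟩`, already `C_V(E) = ⟨z⟩`. -/
theorem fix_E {v : G} (hv : v ∈ f.V) (h : Cz v f.E) : v = 1 ∨ v = f.z := by
  obtain ⟨r, hr, e⟩ := f.cov0
  refine f.fixW_out f.sS f.s_not (f.fixV_R hr (fun hc => f.z_ne ?_) hv (conj_eq_of_comm (h r ?_).symm))
    (conj_eq_of_comm (h _ (f.mem_E.2 ⟨f.sS, Or.inl f.sa⟩)).symm)
  · exact mul_eq_left.1 (e.symm.trans (f.fixC hc f.aV))
  · exact f.mem_E.2 ⟨hr.1, Or.inr e⟩

/-- An involution outside `R`: `b · b ^ t` and `[t, b]`. -/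
theorem out {t : G} (ht : t ∈ f.S) (h1 : t ∉ f.R) (h2 : t * t = 1) : t ∈ f.E ∧ t * f.w * t⁻¹ = f.w * f.z ∧
    (∀ m ∈ f.L, m * m = f.z → t * m * t⁻¹ = m ∨ t * m * t⁻¹ = m * f.z) ∧
    (∃ m ∈ f.L, m * m = f.z ∧ t * m = m * t) ∧
    ∃ γ ∈ f.L, γ * γ = f.z ∧ t * γ * t⁻¹ = γ⁻¹ ∧ f.b⁻¹ * t * f.b = t * γ := by
  have hE : t ∈ f.E := (f.R_or_E ht (h2 ▸ one_mem _)).resolve_left h1
  have hw := f.not_R ht h1
  have b1 := cj_mem (f.nL ht) f.bL
  have tt : ∀ x, t * (t * x * t⁻¹) * t⁻¹ = x := fun x => by rw [conj_conj, h2]; simp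
  have m1 : f.b * (t * f.b * t⁻¹) ∈ f.L := mul_mem f.bL b1
  have m2 : f.b * (t * f.b * t⁻¹) * (f.b * (t * f.b * t⁻¹)) = f.z := by
    rw [f.sq_mulL f.bL b1, ← conj_mul', f.bb, hw, sq_cancel f.ww]
  have m3 : t * (f.b * (t * f.b * t⁻¹)) * t⁻¹ = f.b * (t * f.b * t⁻¹) := by rw [conj_mul', tt, f.commL f.bL b1]
  refine ⟨hE, hw, fun m hm e => ?_, ⟨_, m1, m2, comm_of_conj_eq m3⟩, (t * f.b * t⁻¹)⁻¹ * f.b,
    mul_mem (inv_mem b1) f.bL, ?_, ?_, ?_⟩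
  · obtain ⟨v, hv, rfl⟩ := f.eq_of_sq m1 (f.LC hm) (f.commL m1 hm) (e.trans m2.symm)
    rw [conj_mul', m3]
    exact ((f.mem_E'.1 hE).2 v hv).imp (fun h => by rw [h]) fun h => by rw [h, mul_assoc _ v]
  · rw [f.sq_mulL (inv_mem b1) f.bL, ← mul_inv_rev, ← conj_mul', f.bb, hw, mul_inv_rev, inv_of_sq f.zz,
      inv_mul_cancel_right]
  · rw [conj_mul', ← conj_inv, tt]; group
  · rw [mul_inv_rev, mul_inv_rev, inv_inv, inv_of_sq h2, mul_assoc, mul_assoc, sq_cancel h2, mul_assoc]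

theorem exists_y {t : G} (ht : t ∈ f.S) (h1 : t ∉ f.R) (h2 : t * t = 1) : ∃ x ∈ f.S ⊔ zpowers f.y,
    x ∈ normalizer (f.R : Set G) ∧ x ∈ normalizer (f.V : Set G) ∧ x ∈ normalizer (f.L : Set G) ∧
      x * f.z * x⁻¹ = f.w ∧ x * f.w * x⁻¹ = f.z * f.w ∧ (∃ k : ℕ, x ^ 3 ^ k = 1) ∧ t * x * t⁻¹ = x⁻¹ := by
  have hw := f.not_R ht h1
  have c := f.commV f.zV f.wV
  have i1 : f.y⁻¹ * f.w * f.y⁻¹⁻¹ = f.z := by rw [← f.yz]; group
  have i2 : f.y⁻¹ * f.z * f.y⁻¹⁻¹ = f.z * f.w := by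
    have : f.y⁻¹ * (f.z * f.w) * f.y⁻¹⁻¹ = f.w := by rw [← f.yw]; group
    rw [conj_mul', i1] at this
    rw [eq_mul_inv_of_mul_eq this, inv_of_sq f.zz, c]
  have t2 : t * (f.z * f.w) * t⁻¹ = f.w := by rw [conj_mul', f.cz ht, hw, comm_assoc c, f.zz, mul_one]
  have N : ∀ K : Subgroup G, t ∈ K → f.y ∈ K → t * f.y * t * f.y⁻¹ ∈ K := fun K a b =>
    mul_mem (mul_mem (mul_mem a b) a) (inv_mem b)
  set x := t * f.y * t * f.y⁻¹ with hx
  have cx : ∀ g, x * g * x⁻¹ = t * (f.y * (t * (f.y⁻¹ * g * f.y⁻¹⁻¹) * t⁻¹) * f.y⁻¹) * t⁻¹ := fun g => by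
    rw [hx]; group
  have xR := N _ (f.nR ht) f.yR'
  have r1 : x * (f.y * f.y) ∈ f.R := by
    have : x * (f.y * f.y) = t * f.s⁻¹ * (f.s * f.y * f.s⁻¹ * f.y) * (f.y⁻¹ * (t * f.s⁻¹)⁻¹ * f.y) := by
      rw [hx, mul_inv_rev, inv_of_sq h2]; group
    rw [this]
    exact mul_mem (mul_mem (f.split ht h1) f.sy) (cj_mem' f.yR' (inv_mem (f.split ht h1)))
  have r2 : ∀ n : ℕ, x ^ n * (f.y * f.y) ^ n ∈ f.R := fun n => by
    induction n with
    | zero => simp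
    | succ n ih =>
      have : x ^ (n + 1) * (f.y * f.y) ^ (n + 1) = x * (x ^ n * (f.y * f.y) ^ n) * x⁻¹ * (x * (f.y * f.y)) := by
        rw [pow_succ', pow_succ]; group
      rw [this]; exact mul_mem (cj_mem xR ih) r1
  obtain ⟨k, hk⟩ := f.y3
  have r3 := r2 (3 ^ k)
  rw [← pow_two, ← pow_mul, mul_comm, pow_mul, hk, one_pow, mul_one] at r3
  obtain ⟨i, hi⟩ := f.two ⟨_, r3.1⟩
  have hi' : (x ^ 3 ^ k) ^ 2 ^ i = 1 := congrArg Subtype.val hi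
  have rot : ∀ i : ℕ, x ^ 4 ^ i * f.z * (x ^ 4 ^ i)⁻¹ = f.w ∧ x ^ 4 ^ i * f.w * (x ^ 4 ^ i)⁻¹ = f.z * f.w := fun i => by
    induction i with
    | zero => rw [pow_zero, pow_one, cx, cx, i1, i2, t2, f.yw, t2, f.cz ht, f.yz, hw, c]; exact ⟨rfl, rfl⟩
    | succ n ih =>
      rw [pow_succ, pow_mul, pow_succ', ← conj_conj, ← conj_conj, f.cube_W ih.1 ih.2 f.zW, f.cube_W ih.1 ih.2 f.wW]
      exact ih
  refine ⟨x ^ 4 ^ i, pow_mem (N _ (mem_sup_left ht) (mem_sup_right (mem_zpowers _))) _, pow_mem xR _,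
    pow_mem (N _ (f.nV ht) f.yV) _, pow_mem (N _ (f.nL ht) f.yL) _, (rot i).1, (rot i).2, ⟨k, ?_⟩,
    inverts_zpowers (d := x) ?_ (npow_mem_zpowers _ _)⟩
  · rw [← pow_mul, mul_comm, show 4 ^ i = 2 ^ i * 2 ^ i from mul_pow 2 2 i, pow_mul, pow_mul, hi', one_pow]
  · rw [hx]
    simp only [mul_inv_rev, inv_inv, inv_of_sq h2, mul_assoc, sq_cancel h2]

/-- The frame can be chosen so that a given involution outside `R` inverts `y`. -/
theorem refit {t : G} (ht : t ∈ f.S) (h1 : t ∉ f.R) (h2 : t * t = 1) : ∃ f' : Fr G, f'.Inv ∧ f'.s = t ∧ f'.S = f.S ∧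
    f'.V = f.V ∧ f'.z = f.z ∧ f'.w = f.w ∧ f'.L = f.L ∧ f'.E = f.E ∧ f'.y ∈ f.S ⊔ zpowers f.y := by
  obtain ⟨x, x0, xR, xV, xL, xz, xw, ⟨k, hk⟩, xt⟩ := f.exists_y ht h1 h2
  have c := f.commV f.zV f.wV
  have xW : x ∈ normalizer (f.W : Set G) := norm_closure (by
    rintro g (rfl | rfl)
    · rw [xz]; exact f.wW
    · rw [xw]; exact mul_mem f.zW f.wW)
  obtain ⟨u, hu, xa⟩ : ∃ u ∈ f.W, x * (f.a * u) * x⁻¹ = f.a * u := by
    obtain ⟨u, hu, e⟩ := f.act_N xV xW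
    rcases f.mem_W.1 hu with rfl | rfl | rfl | rfl
    · exact ⟨1, one_mem _, by rwa [mul_one] at e ⊢⟩
    · exact ⟨f.w, f.wW, by rw [conj_mul', e, xw, mul_assoc, sq_cancel f.zz]⟩
    · exact ⟨f.z * f.w, mul_mem f.zW f.wW, by rw [conj_mul', conj_mul', e, xw, xz, mul_assoc, sq_cancel f.ww]⟩
    · exact ⟨f.z, f.zW, by rw [conj_mul', e, xz, mul_assoc, mul_assoc, f.ww, mul_one]⟩
  have aV : f.a * u ∈ f.V := mul_mem f.aV (f.WV hu)
  have split : ∀ v ∈ f.V, v ∈ f.W ∨ ∃ u' ∈ f.W, v = f.a * u * u' := fun v hv =>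
    (f.mem_V.1 hv).imp id fun ⟨u', h, e⟩ => ⟨u * u', mul_mem hu h, by rw [e, mul_assoc, sq_cancel (f.sqW u hu)]⟩
  have ta : t * (f.a * u) * t⁻¹ = f.a * u := by
    rcases split _ (cj_mem (f.nV ht) aV) with h | ⟨u', h, e⟩
    · exact absurd ((mul_mem_cancel_right hu).1 ((conj_mem_norm (f.nW' ht)).1 h)) f.a_not
    · have h3 : x * (t * (f.a * u) * t⁻¹) * x⁻¹ = t * (f.a * u) * t⁻¹ := by
        have h4 : x * t = t * x⁻¹ := by rw [← xt, ← mul_assoc, ← mul_assoc, h2, inv_of_sq h2, one_mul]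
        have h5 : x⁻¹ * (f.a * u) * x⁻¹⁻¹ = f.a * u := by nth_rewrite 1 [← xa]; group
        rw [conj_conj, h4, ← conj_conj, h5]
      rw [e, conj_mul', xa] at h3
      rw [e, f.fix_rot xz xw h (mul_left_cancel h3), mul_one]
  have x3 : ∀ v ∈ f.V, x ^ 3 * v * (x ^ 3)⁻¹ = v := fun v hv => by
    rcases split v hv with h | ⟨u', h, rfl⟩
    · exact f.cube_W xz xw h
    · rw [conj_mul', f.cube_W xz xw h, Fr0.cube_conj, xa, xa, xa]
  have l3 : x * (x * (x * f.l * x⁻¹) * x⁻¹) * x⁻¹ = f.l := by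
    rw [← Fr0.cube_conj]
    have m := cj_mem (pow_mem xL 3) f.lL
    obtain ⟨v, hv, e⟩ := f.eq_of_sq f.lL (f.LC m) (f.commL f.lL m) (by rw [← conj_mul', f.ll, x3 _ f.zV])
    have h3 : Commute (x ^ 3 * x ^ 3) f.l := comm_of_conj_eq (by
      rw [← conj_conj, e, conj_mul', e, x3 v hv, mul_assoc, f.el.sq v hv, mul_one])
    obtain ⟨j, hj⟩ : Odd (3 ^ k) := Odd.pow (by decide)
    have h4 : x ^ 3 = (x ^ 3 * x ^ 3) ^ (j + 1) := by
      rw [← pow_add, ← pow_mul, show (3 + 3) * (j + 1) = 3 ^ k * 3 + 3 by omega, pow_add, pow_mul, hk]; simp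
    exact conj_eq_of_comm (h4 ▸ h3.pow_left _)
  have l1 := cj_mem xL f.lL
  have l2 := cj_mem xL l1
  obtain ⟨p, hp⟩ : ∃ p, p = f.l * (x * f.l * x⁻¹) * (x * (x * f.l * x⁻¹) * x⁻¹) := ⟨_, rfl⟩
  have pL : p ∈ f.L := hp ▸ mul_mem (mul_mem f.lL l1) l2
  have pp : p * p = 1 := by
    rw [hp, f.sq_mulL (mul_mem f.lL l1) l2, f.sq_mulL f.lL l1, ← conj_mul', ← conj_mul', ← conj_mul', f.ll, xz, xw]
    exact f.sqW _ (mul_mem f.zW f.wW)
  have pV : p ∈ f.V := f.inv_C (f.LC pL) pp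
  have xp : x * p * x⁻¹ = p := by
    rw [hp, conj_mul', conj_mul', l3, ← f.commL f.lL (mul_mem l1 l2), mul_assoc f.l]
  have lp := mul_mem f.lL pL
  let f' : Fr G :=
    { S := f.S, V := f.V, z := f.z, w := f.w, a := f.a * u, y := x, l := f.l * p, s := t
      two := f.two, n16 := f.n16, VS := f.VS, nV := f.nV, el := f.el, zc := f.zc, nW := f.nW
      gen := by
        rw [triple_eq]
        refine le_antisymm (fun v hv => ?_) (ext_le.2 ⟨f.WV, aV⟩)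
        rcases split v hv with h | ⟨u', h, rfl⟩
        exacts [le_ext _ _ h, mul_mem (self_mem_ext _ _) (le_ext _ _ h)]
      yR := xR, yz := xz, yw := xw, ya := xa, y3 := ⟨k, hk⟩
      cov := by
        obtain ⟨r, hr, e⟩ := f.cov0
        exact ⟨r, hr.1, Rec.mem_cen.1 hr.2, by
          rw [conj_mul', e, f.fixR hr hu, mul_assoc, mul_assoc, f.commV f.zV (f.WV hu)]⟩
      lS := (f.LC lp).1
      lC := f.cz_of_mem_C (f.LC lp)
      ll := by rw [f.sq_mul f.lC' pV, f.ll]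
      lc := f.commL lp (cj_mem xL lp)
      lp := by
        rw [conj_mul', conj_mul', xp, xp]
        have c1 := f.commL pL l1
        have c2 := f.commL pL l2
        generalize x * (x * f.l * x⁻¹) * x⁻¹ = q2 at *
        generalize x * f.l * x⁻¹ = q1 at *
        simp only [mul_assoc] at hp ⊢
        rw [comm_assoc c2, pp, mul_one, comm_assoc c1, c2, ← pp]
        nth_rewrite 2 [hp]
        simp only [mul_assoc]
      lV := fun g hg => by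
        have : g * (f.l * p) * g⁻¹ * (f.l * p)⁻¹ = g * f.l * g⁻¹ * f.l⁻¹ * (f.l * (g * p * g⁻¹ * p⁻¹) * f.l⁻¹) := by
          group
        rw [this]
        exact mul_mem (f.lV g hg) (cj_mem (f.nV f.lS) (mul_mem (cj_mem (f.nV hg) pV) (inv_mem pV)))
      sS := ht, sw := f.not_R ht h1, sa := ta
      sy := by rw [xt, inv_mul_cancel]; exact one_mem _ }
  refine ⟨f', ⟨h2, xt⟩, rfl, rfl, rfl, rfl, rfl, eq_of_card ((closure_le _).2 ?_) (by rw [Fr0.card_L, Fr0.card_L]),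
    ?_, x0⟩
  · rintro g (rfl | rfl | rfl)
    exacts [lp, cj_mem xL lp, f.VL aV]
  · ext e
    rw [Fr0.mem_E', Fr0.mem_E']

end Fr

end Cfsg.Agent.R3
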