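import Mathlib
import Cfsg.Agent.R3.Basic

/-! Anisotropic sections and the invariant `E₈` (piece R3-EnD). See `stubs/Cfsg/Agent/R3/PLAN.md`. -/

set_option autoImplicit false
set_option linter.unusedSectionVars false

namespace Cfsg.Agent.R3

open Cfsg.Agent.Inv.Fz Cfsg.Agent.GH Subgroup
open scoped commutatorElement

variable {G : Type*} [Group G] [Finite G]

namespace EnD

open Cfsg.Agent.NE

theorem card_le_of_fun {K L : Subgroup G} {T : Type*} [Finite T] (f : K → T)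
    (h : ∀ x y : K, f x = f y → (x : G)⁻¹ * y ∈ L) : Nat.card K ≤ Nat.card T * Nat.card L := by
  have h1 : (L.subgroupOf K).index ≤ Nat.card T :=
    Nat.card_le_card_of_injective (fun q : K ⧸ L.subgroupOf K => f q.out) fun q q' e => by
      rw [← q.out_eq, ← q'.out_eq]
      exact QuotientGroup.eq.2 (h _ _ e)
  have h2 : Nat.card (L.subgroupOf K) ≤ Nat.card L :=
    Nat.card_le_card_of_injective (fun x => (⟨x.1.1, x.2⟩ : L)) fun x y e =>
      Subtype.ext (Subtype.ext (congrArg (fun z : L => (z : G)) e))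
  rw [← (L.subgroupOf K).index_mul_card]
  exact Nat.mul_le_mul h1 h2

theorem card_le_two {K L : Subgroup G} (h : ∀ x ∈ K, ∀ y ∈ K, x ∉ L → y ∉ L → x⁻¹ * y ∈ L) :
    Nat.card K ≤ 2 * Nat.card L := by
  have := card_le_of_fun (K := K) (L := L) (T := Prop) (fun x => (x : G) ∈ L) fun x y e => by
    by_cases hx : (x : G) ∈ L
    · exact mul_mem (inv_mem hx) (e ▸ hx)
    · exact h _ x.2 _ y.2 hx (e ▸ hx)
  simpa using this

theorem two_of_four {U : Subgroup G} (h4 : Nat.card U ≤ 4) {u a b : G} (hu : u ∈ U) (u1 : u ≠ 1) (ha : a ∈ U)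
    (hb : b ∈ U) (a1 : a ∉ zpowers u) (b1 : b ∉ zpowers u) : a⁻¹ * b ∈ zpowers u := by
  classical
  by_contra k
  have z1 := one_mem (zpowers u)
  have zu := mem_zpowers u
  have n1 : a ≠ 1 := fun e => a1 (e ▸ z1)
  have n2 : a ≠ u := fun e => a1 (e ▸ zu)
  have n3 : b ≠ 1 := fun e => b1 (e ▸ z1)
  have n4 : b ≠ u := fun e => b1 (e ▸ zu)
  have n5 : a * u ≠ 1 := fun e => a1 ((mul_mem_cancel_right zu).1 (e ▸ z1))
  have n6 : a * u ≠ u := fun e => a1 ((mul_mem_cancel_right zu).1 (e.symm ▸ zu))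
  have n7 : b ≠ a := fun e => k (by rw [e, inv_mul_cancel]; exact z1)
  have n8 : b ≠ a * u := fun e => k (by rw [e, inv_mul_cancel_left]; exact zu)
  have n9 : a * u ≠ a := by simpa using u1
  have h5 : ({b, a * u, a, u, 1} : Finset G).card = 5 := by
    rw [Finset.card_insert_of_notMem (by simp [*]), Finset.card_insert_of_notMem (by simp [*]),
      Finset.card_insert_of_notMem (by simp [*]), Finset.card_pair u1]
  have h6 : (({b, a * u, a, u, 1} : Finset G) : Set G).ncard ≤ (U : Set G).ncard :=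
    Set.ncard_le_ncard (by
      intro x hx
      simp only [Finset.coe_insert, Finset.coe_singleton, Set.mem_insert_iff, Set.mem_singleton_iff] at hx
      rcases hx with rfl | rfl | rfl | rfl | rfl
      exacts [hb, mul_mem ha hu, ha, hu, one_mem _]) (Set.toFinite _)
  rw [Set.ncard_coe_finset, h5] at h6
  have : (U : Set G).ncard = Nat.card U := rfl
  omega

theorem dvd_card {Γ T : Type*} [Group Γ] [MulAction Γ T] [Finite T] {d : ℕ}
    (h : ∀ x : T, d ∣ Nat.card (MulAction.orbit Γ x)) : d ∣ Nat.card T := by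
  classical
  have := Fintype.ofFinite (MulAction.orbitRel.Quotient Γ T)
  rw [Nat.card_congr (MulAction.selfEquivSigmaOrbits Γ T), Nat.card_sigma]
  exact Finset.dvd_sum fun ω _ => h _

theorem cube0 {X : Type*} [Group X] [Finite X] (h2 : ∀ x : X, x * x = 1) (hc : Nat.card X ≤ 32) (σ : MulAut X)
    {k : ℕ} (hσ : σ ^ 3 ^ k = 1) (x : X) : (σ ^ 3) x = x := by
  classical
  have : Fact (Nat.Prime 2) := ⟨by norm_num⟩
  let F : Subgroup X := (σ ^ 3).toMonoidHom.eqLocus (MonoidHom.id X)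
  have mF : ∀ x, x ∈ F ↔ (σ ^ 3) x = x := fun x => Iff.rfl
  have inv : ∀ x, σ x ∉ F ↔ x ∉ F := fun x => by
    rw [mF, mF, ← MulAut.mul_apply, ← pow_succ, pow_succ', MulAut.mul_apply, σ.injective.eq_iff]
  let f : Equiv.Perm {x // x ∉ F} := Equiv.Perm.subtypePerm σ.toEquiv inv
  have fp : ∀ (n : ℕ) (x : {x // x ∉ F}), ((f ^ n) x : X) = (σ ^ n) x := fun n => by
    induction n with
    | zero => intro x; rfl
    | succ n ih => intro x; rw [pow_succ, pow_succ, Equiv.Perm.mul_apply, ih]; rfl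
  have h9 : 9 ∣ Nat.card {x // x ∉ F} := dvd_card (Γ := zpowers f) fun x => by
    have := Fintype.ofFinite (MulAction.orbit (zpowers f) x)
    rw [Nat.card_eq_fintype_card, ← MulAction.minimalPeriod_eq_card]
    have key : ∀ n, Function.minimalPeriod (f • ·) x ∣ n ↔ (σ ^ n) x = x := fun n => by
      rw [← MulAction.pow_smul_eq_iff_minimalPeriod_dvd, ← fp, Subtype.ext_iff]
      rfl
    obtain ⟨i, -, hi⟩ := (Nat.dvd_prime_pow Nat.prime_three).1 ((key (3 ^ k)).2 (by rw [hσ]; rfl))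
    have h3 : ¬ 3 ^ i ∣ 3 ^ 1 := fun e => x.2 ((key 3).1 (hi ▸ e))
    rw [hi]
    exact pow_dvd_pow 3 (show 2 ≤ i by
      by_contra l
      exact h3 (pow_dvd_pow 3 (by omega)))
  have pX : IsPGroup 2 X := fun x => ⟨1, by rw [pow_one, pow_two, h2]⟩
  obtain ⟨m, hm⟩ := IsPGroup.iff_card.1 pX
  obtain ⟨a, ha⟩ := IsPGroup.iff_card.1 (pX.to_subgroup F)
  have hs : Nat.card F + Nat.card {x // x ∉ F} = Nat.card X := by
    rw [← Nat.card_sum]
    exact Nat.card_congr (Equiv.sumCompl (· ∈ F))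
  by_contra hx
  have pos : 0 < Nat.card {x // x ∉ F} := Nat.card_pos_iff.2 ⟨⟨⟨x, hx⟩⟩, inferInstance⟩
  have m5 : m ≤ 5 := (Nat.pow_le_pow_iff_right (a := 2) (by norm_num)).1 (by omega)
  have a5 : a < m := (Nat.pow_lt_pow_iff_right (a := 2) (by norm_num)).1 (by omega)
  interval_cases m <;> interval_cases a <;> omega

theorem mem_two {w g : G} (hw : w * w = 1) (hg : g ∈ zpowers w) : g = 1 ∨ g = w := by
  obtain ⟨n, rfl⟩ := hg
  have h2 : w ^ (2 : ℤ) = 1 := by rw [zpow_two, hw]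
  rcases Int.even_or_odd' n with ⟨m, rfl | rfl⟩
  · exact .inl (by simp only [zpow_mul, h2, one_zpow])
  · exact .inr (by simp only [zpow_add, zpow_mul, h2, one_zpow, one_mul, zpow_one])

theorem comm_of_sq {a b : G} (ha : a * a = 1) (hb : b * b = 1) (h : a * b * (a * b) = 1) : a * b = b * a := by
  rw [← inv_eq_of_mul_eq_one_right h, mul_inv_rev, inv_eq_of_mul_eq_one_right ha, inv_eq_of_mul_eq_one_right hb]

open Classical in
/-- The class modulo `Y`. -/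
noncomputable def pq (Y : Subgroup G) (g : G) : normalizer (Y : Set G) ⧸ Y.subgroupOf (normalizer (Y : Set G)) :=
  if h : g ∈ normalizer (Y : Set G) then QuotientGroup.mk ⟨g, h⟩ else 1

section
variable {Y : Subgroup G} {a b : G}

theorem pq_mul (ha : a ∈ normalizer (Y : Set G)) (hb : b ∈ normalizer (Y : Set G)) :
    pq Y (a * b) = pq Y a * pq Y b := by
  rw [pq, pq, pq, dif_pos ha, dif_pos hb, dif_pos (mul_mem ha hb)]; rfl

theorem pq_inv (ha : a ∈ normalizer (Y : Set G)) : pq Y a⁻¹ = (pq Y a)⁻¹ := by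
  rw [pq, pq, dif_pos ha, dif_pos (inv_mem ha)]; rfl

theorem pq_pow (ha : a ∈ normalizer (Y : Set G)) (n : ℕ) : pq Y (a ^ n) = pq Y a ^ n := by
  rw [pq, pq, dif_pos ha, dif_pos (pow_mem ha n)]; rfl

theorem pq_one (ha : a ∈ normalizer (Y : Set G)) : pq Y a = 1 ↔ a ∈ Y := by
  rw [pq, dif_pos ha, QuotientGroup.eq_one_iff, mem_subgroupOf]

theorem pq_cj (ha : a ∈ normalizer (Y : Set G)) (hb : b ∈ normalizer (Y : Set G)) :
    pq Y (a * b * a⁻¹) = pq Y a * pq Y b * (pq Y a)⁻¹ := by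
  rw [pq_mul (mul_mem ha hb) (inv_mem ha), pq_mul ha hb, pq_inv ha]

theorem norm_ext {x g : G} (h2 : ∀ u ∈ Y, u * u = 1) (hx : x * x = 1) (hc : ∀ u ∈ Y, x * u = u * x)
    (hg : g ∈ normalizer (Y : Set G)) (h : x * (g * x * g⁻¹) ∈ Y) : g ∈ normalizer (ext Y x : Set G) :=
  mem_normalizer_of_conj_mem fun v hv => ((ext_elem h2 hx hc).1 _).2 <|
    (((ext_elem h2 hx hc).1 _).1 hv).imp (conj_mem_norm hg).2 fun k => by
      have := mul_mem h ((conj_mem_norm hg).2 k)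
      rwa [show x * (g * x * g⁻¹) * (g * (x * v) * g⁻¹) = x * (g * (x * x * v) * g⁻¹) by group, hx,
        one_mul] at this

end

variable {S P Y : Subgroup G} {z y : G}

theorem PS (h : Pl S P Y z y) : P ≤ S := h.cen ▸ inf_le_left

theorem PN (h : Pl S P Y z y) {x : G} (hx : x ∈ P) : x ∈ normalizer (Y : Set G) := h.nY (PS h hx)

theorem PC (h : Pl S P Y z y) {x : G} (hx : x ∈ P) : Cz x Y := fun u hu =>
  (mem_centralizer_iff.1 (h.cen ▸ hx : x ∈ S ⊓ centralizer (Y : Set G)).2 u hu).symm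

theorem YP (h : Pl S P Y z y) : Y ≤ P := fun u hu => h.cen ▸ ⟨h.YS hu, mem_centralizer_iff.2 fun v hv =>
  comm_of_sq (h.el.sq v hv) (h.el.sq u hu) (h.el.sq _ (mul_mem hv hu))⟩

theorem SN (h : Pl S P Y z y) : S ≤ normalizer (P : Set G) := fun s hs => mem_normalizer_of_conj_mem fun x hx =>
  h.cen ▸ ⟨S.mul_mem (S.mul_mem hs (PS h hx)) (S.inv_mem hs), mem_centralizer_iff.2 fun u hu => by
    have := PC h hx _ ((conj_mem_norm (inv_mem (h.nY hs))).2 hu)
    calc _ = s * (s⁻¹ * u * s⁻¹⁻¹ * x) * s⁻¹ := by group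
      _ = _ := by rw [← this]; group⟩

theorem fpf (h : Pl S P Y z y) {w : G} (hw : w ∈ Y) (e : y * w * y⁻¹ = w) : w = 1 := by
  by_contra w1
  have ww := h.el.sq w hw
  have k := two_of_four h.el.card.le hw w1 h.zY ((conj_mem_norm h.yY).2 h.zY)
    (fun q => (mem_two ww q).elim h.z1 fun q => h.mv (q ▸ e))
    fun q => (mem_two ww q).elim (fun q => h.z1 (by simpa [mul_inv_eq_one] using q)) fun q => h.mv (by
      have : z = w := by simpa using q.trans e.symm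
      rw [this, e])
  have k1 : y * z * y⁻¹ = z * w := (mem_two ww k).elim (fun q => absurd (inv_mul_eq_one.1 q).symm h.mv)
    fun q => inv_mul_eq_iff_eq_mul.1 q
  have k2 : Commute (y ^ 2) z := by
    have : y * (y * z * y⁻¹) * y⁻¹ = z := by
      rw [k1, ← conj_mul, k1, e, mul_assoc, ww, mul_one]
    rw [Commute, SemiconjBy, pow_two]
    calc _ = y * (y * z * y⁻¹) * y⁻¹ * (y * y) := by group
      _ = _ := by rw [this]
  obtain ⟨n, hn⟩ := h.y3
  obtain ⟨m, hm⟩ : Odd (3 ^ n) := Odd.pow (by decide)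
  rw [hm, pow_succ, pow_mul] at hn
  exact h.mv (by rw [← inv_eq_of_mul_eq_one_right hn, (k2.pow_left m).inv_left.eq, mul_inv_cancel_right])

/-- The preimage of `Ω₁ Z(P / Y)`. -/
def Z (h : Pl S P Y z y) : Subgroup G where
  carrier := {x | x ∈ P ∧ pq Y x * pq Y x = 1 ∧ ∀ r ∈ P, Commute (pq Y x) (pq Y r)}
  one_mem' := by
    have : pq Y 1 = 1 := (pq_one (one_mem _)).2 (one_mem _)
    exact ⟨one_mem _, by rw [this, one_mul], fun r _ => this ▸ Commute.one_left _⟩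
  mul_mem' := fun {a b} ha hb => ⟨mul_mem ha.1 hb.1, by
    rw [pq_mul (PN h ha.1) (PN h hb.1), (ha.2.2 b hb.1).symm.mul_mul_mul_comm, ha.2.1, hb.2.1, one_mul],
    fun r hr => pq_mul (PN h ha.1) (PN h hb.1) ▸ (ha.2.2 r hr).mul_left (hb.2.2 r hr)⟩
  inv_mem' := fun {a} ha => ⟨inv_mem ha.1, by rw [pq_inv (PN h ha.1), ← mul_inv_rev, ha.2.1, inv_one],
    fun r hr => pq_inv (PN h ha.1) ▸ (ha.2.2 r hr).inv_left⟩

theorem Z_sq (h : Pl S P Y z y) {x : G} (hx : x ∈ Z h) : x * x ∈ Y :=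
  (pq_one (PN h (mul_mem hx.1 hx.1))).1 (pq_mul (PN h hx.1) (PN h hx.1) ▸ hx.2.1)

theorem YZ (h : Pl S P Y z y) : Y ≤ Z h := fun u hu => by
  have := (pq_one (PN h (YP h hu))).2 hu
  exact ⟨YP h hu, by rw [this, one_mul], fun r _ => this ▸ Commute.one_left _⟩

theorem Z_cj (h : Pl S P Y z y) {x g : G} (g1 : g ∈ normalizer (P : Set G)) (g2 : g ∈ normalizer (Y : Set G))
    (hx : x ∈ Z h) : g * x * g⁻¹ ∈ Z h :=
  ⟨(conj_mem_norm g1).2 hx.1, by rw [pq_cj g2 (PN h hx.1), conj_mul, hx.2.1]; simp, fun r hr => by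
    have := (hx.2.2 _ ((conj_mem_norm (inv_mem g1)).2 hr)).eq
    rw [pq_cj (inv_mem g2) (PN h hr), pq_inv g2] at this
    rw [pq_cj g2 (PN h hx.1), Commute, SemiconjBy]
    calc _ = pq Y g * (pq Y x * ((pq Y g)⁻¹ * pq Y r * (pq Y g)⁻¹⁻¹)) * (pq Y g)⁻¹ := by group
      _ = _ := by rw [this]; group⟩

theorem four (h : Pl S P Y z y) {a b : G} (ha : a ∈ P) (hb : b ∈ P) (a2 : a * a = 1) (b2 : b * b = 1)
    (k : a * b * (a * b) = 1) : a ∈ Y ∨ b ∈ Y ∨ a * b ∈ Y :=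
  h.n16.four h.YS h.el (PS h ha) (PS h hb) a2 b2 (PC h ha) (PC h hb) (comm_of_sq a2 b2 k)

theorem an (h : Pl S P Y z y) {x g : G} (g1 : g ∈ normalizer (P : Set G)) (g2 : g ∈ normalizer (Y : Set G))
    (hx : x ∈ P) (x2 : x * x = 1) (k : x * (g * x * g⁻¹) * (g * (g * x * g⁻¹) * g⁻¹) ∈ Y) : x ∈ Y := by
  have p1 := (conj_mem_norm g1).2 hx
  have p2 := (conj_mem_norm g1).2 p1
  have q1 : g * x * g⁻¹ * (g * x * g⁻¹) = 1 := by rw [conj_mul, x2]; simp
  have q2 : g * (g * x * g⁻¹) * g⁻¹ * (g * (g * x * g⁻¹) * g⁻¹) = 1 := by rw [conj_mul, q1]; simp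
  rcases four h hx p1 x2 q1 (by
    have c := PC h p2 _ k
    have s := h.el.sq _ k
    generalize g * (g * x * g⁻¹) * g⁻¹ = c2 at *
    generalize x * (g * x * g⁻¹) = c1 at *
    calc c1 * c1 = c1 * (c2 * (c2 * c1)) * (c2 * c2) := by rw [← mul_assoc c2, q2]; simp
      _ = c1 * c2 * (c2 * (c1 * c2)) * c2 := by group
      _ = c1 * c2 * (c1 * c2) * (c2 * c2) := by rw [c]; group
      _ = 1 := by rw [s, q2, one_mul]) with e | e | e
  · exact e
  · exact (conj_mem_norm g2).1 e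
  · exact (conj_mem_norm g2).1 ((conj_mem_norm g2).1 ((mul_mem_cancel_left e).1 k))

theorem fix2 (h : Pl S P Y z y) {x : G} (hx : x ∈ Z h) (c : Commute (pq Y y) (pq Y x)) : x * x = 1 := by
  have n := PN h hx.1
  have hu : y * x * y⁻¹ * x⁻¹ ∈ Y := (pq_one (mul_mem (mul_mem (mul_mem h.yY n) (inv_mem h.yY)) (inv_mem n))).1 (by
    rw [pq_mul (mul_mem (mul_mem h.yY n) (inv_mem h.yY)) (inv_mem n), pq_cj h.yY n, pq_inv n, c.eq]; group)
  refine fpf h (Z_sq h hx) ?_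
  have c1 := PC h hx.1 _ hu
  have s := h.el.sq _ hu
  calc _ = y * x * y⁻¹ * x⁻¹ * (x * (y * x * y⁻¹ * x⁻¹)) * x := by group
    _ = _ := by rw [c1, ← mul_assoc, s, one_mul]

theorem of_fix (h : Pl S P Y z y) {x : G} (hx : x ∈ Z h) (x1 : x ∉ Y) (c : Commute (pq Y y) (pq Y x)) :
    ∃ V' ≤ S, El 8 V' ∧ S ≤ normalizer (V' : Set G) ∧ Y ≤ V' ∧ y ∈ normalizer (V' : Set G) := by
  have x2 := fix2 h hx c
  have n := PN h hx.1
  obtain ⟨-, e2, e3⟩ := ext_elem h.el.sq x2 (PC h hx.1)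
  have key : ∀ g ∈ normalizer (Y : Set G), Commute (pq Y g) (pq Y x) → x * (g * x * g⁻¹) ∈ Y := fun g hg k =>
    (pq_one (mul_mem n (mul_mem (mul_mem hg n) (inv_mem hg)))).1 (by
      rw [pq_mul n (mul_mem (mul_mem hg n) (inv_mem hg)), pq_cj hg n, k.eq, mul_inv_cancel_right, hx.2.1])
  refine ⟨ext Y x, ext_le.2 ⟨h.YS, PS h hx.1⟩, ⟨by rw [e3 x1, h.el.card], e2⟩,
    fun s hs => norm_ext h.el.sq x2 (PC h hx.1) (h.nY hs) ?_, le_ext _ _,
    norm_ext h.el.sq x2 (PC h hx.1) h.yY (key y h.yY c)⟩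
  by_cases sP : s ∈ P
  · exact key s (h.nY hs) (hx.2.2 s sP).symm
  have ns := h.nY hs
  have z' := Z_cj h (SN h hs) ns hx
  have c' : Commute (pq Y y) (pq Y (s * x * s⁻¹)) := by
    have k := (hx.2.2 _ (h.inv _ (inv_mem hs) (by rwa [inv_mem_iff]))).symm
    rw [pq_mul (mul_mem (mul_mem (inv_mem ns) h.yY) (inv_mem (inv_mem ns))) h.yY, pq_cj (inv_mem ns) h.yY,
      pq_inv ns] at k
    have k2 := (k.mul_left c.inv_left).eq
    rw [pq_cj ns n, Commute, SemiconjBy]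
    calc _ = pq Y s * ((pq Y s)⁻¹ * pq Y y * (pq Y s)⁻¹⁻¹ * pq Y y * (pq Y y)⁻¹ * pq Y x) * (pq Y s)⁻¹ := by group
      _ = _ := by rw [k2]; group
  rcases four h hx.1 z'.1 x2 (fix2 h z' c') (fix2 h (mul_mem hx z') (pq_mul n (PN h z'.1) ▸ c.mul_right c'))
    with e | e | e
  · exact absurd e x1
  · exact absurd ((conj_mem_norm ns).1 e) x1
  · exact e

/-- The kernel of the norm of `g` on `Z / Y`. -/
def Hn (h : Pl S P Y z y) {g : G} (g1 : g ∈ normalizer (P : Set G)) (g2 : g ∈ normalizer (Y : Set G)) :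
    Subgroup G where
  carrier := {x | x ∈ Z h ∧
    pq Y x * (pq Y g * pq Y x * (pq Y g)⁻¹) * (pq Y g * (pq Y g * pq Y x * (pq Y g)⁻¹) * (pq Y g)⁻¹) = 1}
  one_mem' := ⟨one_mem _, by rw [(pq_one (one_mem _)).2 (one_mem _)]; simp⟩
  mul_mem' := fun {a b} ha hb => ⟨mul_mem ha.1 hb.1, by
    have a1 := Z_cj h g1 g2 ha.1
    have a2 := Z_cj h g1 g2 a1
    have b1 := Z_cj h g1 g2 hb.1
    have c1 := a1.2.2 _ hb.1.1
    have c2 := a2.2.2 _ (mul_mem hb.1 b1).1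
    rw [pq_mul (PN h hb.1.1) (PN h b1.1), pq_cj g2 (PN h a1.1), pq_cj g2 (PN h hb.1.1)] at c2
    rw [pq_cj g2 (PN h ha.1.1)] at c1 c2
    rw [pq_mul (PN h ha.1.1) (PN h hb.1.1), ← conj_mul, ← conj_mul, c1.symm.mul_mul_mul_comm,
      c2.symm.mul_mul_mul_comm, ha.2, hb.2, one_mul]⟩
  inv_mem' := fun {a} ha => ⟨inv_mem ha.1, by
    rw [pq_inv (PN h ha.1.1), inv_eq_of_mul_eq_one_right ha.1.2.1, ha.2]⟩

theorem norm_pq (h : Pl S P Y z y) {x g : G} (g1 : g ∈ normalizer (P : Set G)) (g2 : g ∈ normalizer (Y : Set G))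
    (hx : x ∈ P) : pq Y (x * (g * x * g⁻¹) * (g * (g * x * g⁻¹) * g⁻¹)) =
      pq Y x * (pq Y g * pq Y x * (pq Y g)⁻¹) * (pq Y g * (pq Y g * pq Y x * (pq Y g)⁻¹) * (pq Y g)⁻¹) := by
  have p1 := (conj_mem_norm g1).2 hx
  rw [pq_mul (PN h (mul_mem hx p1)) (PN h ((conj_mem_norm g1).2 p1)), pq_mul (PN h hx) (PN h p1),
    pq_cj g2 (PN h p1), pq_cj g2 (PN h hx)]

end EnD

open EnD Cfsg.Agent.NE

/-- An anisotropic quadratic map to a four-group lives in dimension at most five. -/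
theorem aniso {H N U : Subgroup G} (hN : N ≤ H) (hU : U ≤ N) (h4 : Nat.card U ≤ 4) (h2 : ∀ n ∈ N, n * n = 1)
    (hc : ∀ n ∈ N, Cz n H) (hs : ∀ x ∈ H, x * x ∈ U) (ha : ∀ x ∈ H, x * x = 1 → x ∈ N) :
    Nat.card H ≤ 32 * Nat.card N := by
  by_cases hH : H ≤ N
  · have := card_le_of_le hH
    omega
  obtain ⟨l, lH, lN⟩ := SetLike.not_le_iff_exists.1 hH
  have sq : ∀ x ∈ H, ∀ y ∈ H, x * y * (x * y) = x * x * (y * y) * (x * y * x⁻¹ * y⁻¹) := fun x hx y hy => by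
    have e1 := hc _ (hU (hs x hx))
    have e2 := hc _ (hU (hs y hy))
    have e3 : x⁻¹ = x * x * x := by
      rw [inv_eq_iff_mul_eq_one, ← h2 _ (hU (hs x hx))]; group
    have e4 : y⁻¹ = y * y * y := by
      rw [inv_eq_iff_mul_eq_one, ← h2 _ (hU (hs y hy))]; group
    have e5 : x * y * x⁻¹ * y⁻¹ = x * x * (y * y) * (x * y * (x * y)) := by
      rw [e3, e4]
      calc x * y * (x * x * x) * (y * y * y) = x * y * (x * x) * x * (y * y) * y := by group
        _ = x * x * (x * y) * x * (y * y) * y := by rw [e1 _ (mul_mem hx hy)]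
        _ = x * x * (x * y * x * (y * y)) * y := by group
        _ = _ := by rw [← e2 _ (mul_mem (mul_mem hx hy) hx)]; group
    rw [e5, ← mul_assoc (x * x * (y * y)), h2 _ (hU (mul_mem (hs x hx) (hs y hy))), one_mul]
  have cU : ∀ x ∈ H, ∀ y ∈ H, x * y * x⁻¹ * y⁻¹ ∈ U := fun x hx y hy =>
    (mul_mem_cancel_left (mul_mem (hs x hx) (hs y hy))).1 (sq x hx y hy ▸ hs _ (mul_mem hx hy))
  have u1 : l * l ≠ 1 := fun e => lN (ha l lH e)
  have uu := h2 _ (hU (hs l lH))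
  have ln : l ∈ normalizer (N : Set G) := mem_normalizer_of_conj_mem fun n hn => by
    rwa [← hc n hn l lH, mul_inv_cancel_right]
  have mM : ∀ {g}, g ∈ ext N l ↔ g ∈ N ∨ l * g ∈ N := mem_ext ln (hU (hs l lH))
  have mZ : ∀ g ∈ zpowers (l * l), g = 1 ∨ g = l * l := fun g hg => mem_two uu hg
  let C := H ⊓ centralizer {l}
  have cC : ∀ c ∈ C, c * l = l * c := fun c hc => mem_centralizer_singleton_iff.1 hc.2
  have k1 : Nat.card H ≤ Nat.card U * Nat.card C :=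
    card_le_of_fun (fun x : H => (⟨_, cU x x.2 l lH⟩ : U)) fun x y e => by
      have e : (x : G) * l * (x : G)⁻¹ = y * l * (y : G)⁻¹ := mul_right_cancel (congrArg Subtype.val e)
      refine ⟨H.mul_mem (H.inv_mem x.2) y.2, mem_centralizer_singleton_iff.2 ?_⟩
      calc _ = (x : G)⁻¹ * (y * l * (y : G)⁻¹) * y := by group
        _ = _ := by rw [← e]; group
  have an : ∀ c ∈ C, c * c ∈ zpowers (l * l) → c ∈ ext N l := fun c hc' h => mM.2 <|
    (mZ _ h).imp (ha c hc'.1) fun e => ha _ (mul_mem lH hc'.1) (by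
      rw [mul_assoc, ← mul_assoc c, cC c hc', mul_assoc, ← mul_assoc, e, uu])
  have k4 := card_ext ln (hU (hs l lH)) lN
  have k2 : Nat.card C ≤ 4 * Nat.card (ext N l) := by
    by_cases hC : C ≤ ext N l
    · have := card_le_of_le hC
      omega
    obtain ⟨c, c1, c2⟩ := SetLike.not_le_iff_exists.1 hC
    have mul : ∀ x ∈ H, ∀ y ∈ H, x⁻¹ * y * c * (x⁻¹ * y)⁻¹ * c⁻¹ =
        (x * c * x⁻¹ * c⁻¹)⁻¹ * (y * c * y⁻¹ * c⁻¹) := fun x hx y hy => by
      have e1 := hc _ (hU (cU y hy c c1.1))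
      have e2 := hc _ (hU (cU x hx c c1.1))
      calc _ = x⁻¹ * (y * c * y⁻¹ * c⁻¹ * (c * x * c⁻¹)) := by group
        _ = x⁻¹ * (x * c * x⁻¹ * c⁻¹)⁻¹ * x * (y * c * y⁻¹ * c⁻¹) := by
          rw [e1 _ (mul_mem (mul_mem c1.1 hx) (inv_mem c1.1))]; group
        _ = _ := by
          rw [mul_assoc x⁻¹, show (x * c * x⁻¹ * c⁻¹)⁻¹ * x = x * (x * c * x⁻¹ * c⁻¹)⁻¹ from
            (show Commute _ x from e2 x hx).inv_left.eq, inv_mul_cancel_left]
    have inv : ∀ x ∈ C, x * c * x⁻¹ * c⁻¹ ∈ zpowers (l * l) → x⁻¹ * c * x⁻¹⁻¹ * c⁻¹ ∈ zpowers (l * l) :=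
      fun x hx h => by
        have := mul x hx.1 1 (one_mem _)
        rw [mul_one x⁻¹] at this
        rw [this]
        exact mul_mem (inv_mem h) (by simp)
    let D : Subgroup G :=
      { carrier := {d | d ∈ C ∧ d * c * d⁻¹ * c⁻¹ ∈ zpowers (l * l)}
        one_mem' := ⟨one_mem _, by simp⟩
        inv_mem' := fun {x} hx => ⟨inv_mem hx.1, inv x hx.1 hx.2⟩
        mul_mem' := fun {x y} hx hy => ⟨mul_mem hx.1 hy.1, by
          have := mul _ (inv_mem hx.1.1) y hy.1.1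
          have k := mul_mem (inv_mem (inv x hx.1 hx.2)) hy.2
          rwa [← this, inv_inv] at k⟩ }
    have k5 : Nat.card C ≤ 2 * Nat.card D := card_le_two fun x hx y hy x1 y1 =>
      ⟨mul_mem (inv_mem hx) hy, mul x hx.1 y hy.1 ▸ two_of_four h4 (hs l lH) u1 (cU x hx.1 c c1.1)
        (cU y hy.1 c c1.1) (fun e => x1 ⟨hx, e⟩) fun e => y1 ⟨hy, e⟩⟩
    have dc : ∀ d ∈ D, d ∉ ext N l → d * c ∈ ext N l := fun d hd d1 => an _ (mul_mem hd.1 c1) (by
      rw [sq d hd.1.1 c c1.1]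
      refine mul_mem ?_ hd.2
      have := two_of_four h4 (hs l lH) u1 (hs d hd.1.1) (hs c c1.1) (fun e => d1 (an d hd.1 e))
        fun e => c2 (an c c1 e)
      rwa [inv_eq_of_mul_eq_one_right (h2 _ (hU (hs d hd.1.1)))] at this)
    have k6 : Nat.card D ≤ 2 * Nat.card (ext N l) := card_le_two fun x hx y hy x1 y1 => by
      have := mul_mem (dc _ (inv_mem hx) (by rwa [inv_mem_iff])) (inv_mem (dc _ (inv_mem hy) (by rwa [inv_mem_iff])))
      simpa [mul_assoc] using this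
    omega
  calc Nat.card H ≤ 4 * (4 * (2 * Nat.card N)) := k1.trans (Nat.mul_le_mul h4 (k4 ▸ k2))
    _ = _ := by ring

/-- The Sylow 3-subgroups of `GL₅(2)` have exponent 3. -/
theorem cube {H N : Subgroup G} (hN : N ≤ H) (hs : ∀ x ∈ H, x * x ∈ N) (hc : Nat.card H ≤ 32 * Nat.card N) {y : G}
    (h1 : y ∈ normalizer (H : Set G)) (h2 : y ∈ normalizer (N : Set G)) (h3 : ∃ k : ℕ, y ^ 3 ^ k = 1) {x : G}
    (hx : x ∈ H) : y ^ 3 * x * (y ^ 3)⁻¹ * x⁻¹ ∈ N := by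
  obtain ⟨k, hk⟩ := h3
  have nN : (N.subgroupOf H).Normal := ⟨fun n hn g => by
    have := mul_mem (mul_mem (hs _ (g * n).2) (inv_mem (mem_subgroupOf.1 hn))) (inv_mem (hs _ g.2))
    simpa [mem_subgroupOf, mul_assoc] using this⟩
  let φ : MulAut H := H.normalizerMonoidHom ⟨y, h1⟩
  have hφ : ∀ (n : ℕ) (x : H), ((φ ^ n) x : G) = y ^ n * x * (y ^ n)⁻¹ := fun n x => by
    rw [← map_pow]; rfl
  have he : (N.subgroupOf H).map φ = N.subgroupOf H := by
    ext g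
    refine (mem_map_equiv (f := φ) (K := N.subgroupOf H) (x := g)).trans ?_
    rw [mem_subgroupOf, mem_subgroupOf]
    exact conj_mem_norm (inv_mem h2)
  let σ : MulAut (H ⧸ N.subgroupOf H) := QuotientGroup.congr _ _ φ he
  have hσ : ∀ (n : ℕ) (x : H), (σ ^ n) (QuotientGroup.mk x) = QuotientGroup.mk ((φ ^ n) x) := fun n => by
    induction n with
    | zero => intro x; rfl
    | succ n ih => intro x; rw [pow_succ, pow_succ, MulAut.mul_apply, MulAut.mul_apply, ← ih]; rfl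
  have c32 : Nat.card (H ⧸ N.subgroupOf H) ≤ 32 := by
    have := card_eq_card_quotient_mul_card_subgroup (N.subgroupOf H)
    rw [Nat.card_congr (subgroupOfEquivOfLe hN).toEquiv] at this
    exact Nat.le_of_mul_le_mul_right (this ▸ hc) Nat.card_pos
  have := cube0 (fun q => by
    obtain ⟨g, rfl⟩ := QuotientGroup.mk_surjective q
    exact (QuotientGroup.eq_one_iff (g * g)).2 (hs _ g.2)) c32 σ (k := k) (by
      ext q
      obtain ⟨g, rfl⟩ := QuotientGroup.mk_surjective q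
      rw [hσ, show (φ ^ 3 ^ k) g = g from Subtype.ext (by rw [hφ, hk]; simp)]
      rfl) (QuotientGroup.mk ⟨x, hx⟩)
  rw [hσ, ← mul_inv_eq_one, ← QuotientGroup.mk_inv, ← QuotientGroup.mk_mul, QuotientGroup.eq_one_iff,
    mem_subgroupOf, coe_mul, hφ] at this
  exact this

/-- An `E₈` normalised by `S` and `y`. -/
theorem Pl.exists_inv {S P Y V : Subgroup G} {z y : G} (h : Pl S P Y z y) (hV : V ≤ S) (e : El 8 V)
    (hn : S ≤ normalizer (V : Set G)) (hY : Y ≤ V) :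
    ∃ V' ≤ S, El 8 V' ∧ S ≤ normalizer (V' : Set G) ∧ Y ≤ V' ∧ y ∈ normalizer (V' : Set G) := by
  classical
  by_contra hne
  have nofix : ∀ x ∈ Z h, Commute (pq Y y) (pq Y x) → x ∈ Y := fun x hx c =>
    by_contra fun x1 => hne (of_fix h hx x1 c)
  obtain ⟨a, aV, aY⟩ : ∃ a ∈ V, a ∉ Y := SetLike.not_le_iff_exists.1 fun k => by
    have := card_le_of_le k
    rw [e.card, h.el.card] at this
    omega
  have a2 := e.sq a aV
  have aP : a ∈ P := h.cen ▸ ⟨hV aV, mem_centralizer_iff.2 fun u hu =>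
    comm_of_sq (e.sq _ (hY hu)) a2 (e.sq _ (mul_mem (hY hu) aV))⟩
  have na := PN h aP
  have q2 : pq Y a * pq Y a = 1 := by rw [← pq_mul na na, a2, pq_one (one_mem _)]; exact one_mem _
  have aZ : a ∈ Z h := ⟨aP, q2, fun r hr => by
    have nr := PN h hr
    have k := (ix_of_card hY aV aY (by rw [e.card, h.el.card])).mul_mem aV ((conj_mem_norm (hn (PS h hr))).2 aV) aY
      fun k => aY ((conj_mem_norm nr).1 k)
    rw [← pq_one (mul_mem na (mul_mem (mul_mem nr na) (inv_mem nr))),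
      pq_mul na (mul_mem (mul_mem nr na) (inv_mem nr)), pq_cj nr na, ← q2, mul_right_inj,
      mul_inv_eq_iff_eq_mul] at k
    exact k.symm⟩
  have ex : ∃ j, Commute (pq Y y ^ 3 ^ j) (pq Y a) := h.y3.imp fun k hk => by
    rw [← pq_pow h.yY, hk, (pq_one (one_mem _)).2 (one_mem _)]
    exact Commute.one_left _
  obtain ⟨i, hi⟩ : ∃ i, Nat.find ex = i + 1 := Nat.exists_eq_succ_of_ne_zero fun k => aY (nofix a aZ (by
    simpa [k] using Nat.find_spec ex))
  have c1 := Nat.find_spec ex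
  have c2 := Nat.find_min ex (m := i) (by omega)
  rw [hi, pow_succ, pow_mul] at c1
  have g1 := pow_mem h.yP (3 ^ i)
  have g2 := pow_mem h.yY (3 ^ i)
  have a1 := Z_cj h g1 g2 aZ
  have a3 := Z_cj h g1 g2 a1
  have c3 : ∀ ε : normalizer (Y : Set G) ⧸ Y.subgroupOf (normalizer (Y : Set G)), Commute (ε ^ 3) (pq Y a) →
      ε * (ε * (ε * pq Y a * ε⁻¹) * ε⁻¹) * ε⁻¹ = pq Y a := fun ε k => by
    calc _ = ε ^ 3 * pq Y a * (ε ^ 3)⁻¹ := by rw [pow_three]; group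
      _ = _ := by rw [k.eq, mul_inv_cancel_right]
  rcases i with _ | i
  · simp only [pow_zero, pow_one] at c1 a1 a3
    refine aY (an h h.yP h.yY aP a2 (nofix _ (mul_mem (mul_mem aZ a1) a3) ?_))
    have k := (aZ.2.2 _ (mul_mem a1 a3).1).eq
    rw [pq_mul (PN h a1.1) (PN h a3.1), pq_cj h.yY (PN h a1.1), pq_cj h.yY na] at k
    rw [norm_pq h h.yP h.yY aP, Commute, SemiconjBy, ← mul_inv_eq_iff_eq_mul, ← conj_mul, ← conj_mul, c3 _ c1, ← k,
      mul_assoc (pq Y a)]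
  have b1 : a * (y ^ 3 ^ (i + 1) * a * (y ^ 3 ^ (i + 1))⁻¹) ∈ Hn h g1 g2 := ⟨mul_mem aZ a1, by
    have k1 := a1.2.1
    have k3 := a3.2.1
    rw [pq_cj g2 (PN h a1.1)] at k3
    rw [pq_cj g2 na, pq_pow h.yY] at k1 k3
    have k4 := c3 _ c1
    rw [pq_mul na (PN h a1.1), pq_cj g2 na, pq_pow h.yY]
    generalize pq Y y ^ 3 ^ (i + 1) = ε at *
    generalize pq Y a = q at *
    calc _ = q * (ε * q * ε⁻¹ * (ε * q * ε⁻¹)) * (ε * (ε * q * ε⁻¹) * ε⁻¹ * (ε * (ε * q * ε⁻¹) * ε⁻¹)) *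
        (ε * (ε * (ε * q * ε⁻¹) * ε⁻¹) * ε⁻¹) := by group
      _ = 1 := by rw [k1, k3, k4, mul_one, mul_one, q2]⟩
  have yH : Y ≤ Hn h g1 g2 := fun u hu => ⟨YZ h hu, by rw [(pq_one (PN h (YP h hu))).2 hu]; simp⟩
  have k := cube yH (fun x hx => Z_sq h hx.1) (aniso yH le_rfl h.el.card.le h.el.sq
    (fun u hu x hx => (PC h hx.1.1 u hu).symm) (fun x hx => Z_sq h hx.1) fun x hx x2 => an h g1 g2 hx.1.1 x2 (by
      have p1 := (conj_mem_norm g1).2 hx.1.1
      rw [← pq_one (PN h (mul_mem (mul_mem hx.1.1 p1) ((conj_mem_norm g1).2 p1))), norm_pq h g1 g2 hx.1.1]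
      exact hx.2)) (mem_normalizer_of_conj_mem fun x hx => ⟨Z_cj h h.yP h.yY hx.1, by
        have := congrArg (fun t => pq Y y * t * (pq Y y)⁻¹) hx.2
        rw [pq_pow h.yY] at this
        rw [pq_cj h.yY (PN h hx.1.1), pq_pow h.yY]
        calc _ = _ := ?_
          _ = _ := this
          _ = 1 := by simp
        group⟩) h.yY h.y3 b1
  have nb := PN h b1.1.1
  have n3 := pow_mem h.yY 3
  rw [← pq_one (mul_mem (mul_mem (mul_mem n3 nb) (inv_mem n3)) (inv_mem nb)),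
    pq_mul (mul_mem (mul_mem n3 nb) (inv_mem n3)) (inv_mem nb), pq_cj n3 nb, pq_inv nb, mul_inv_eq_one,
    mul_inv_eq_iff_eq_mul, pq_pow h.yY] at k
  have k1 := ((show Commute _ _ from k).pow_left (3 ^ i)).eq
  have k2 := b1.2
  have k3 := b1.1.2.1
  rw [← pow_mul, ← pow_succ'] at k1
  rw [pq_pow h.yY, k1, mul_inv_cancel_right, k1, mul_inv_cancel_right, k3, one_mul, pq_mul na (PN h a1.1),
    pq_cj g2 na, pq_pow h.yY, ← q2, mul_right_inj, mul_inv_eq_iff_eq_mul] at k2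
  exact c2 k2

end Cfsg.Agent.R3
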