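import Mathlib
import Cfsg.Agent.R3.Basic

/-! The class of an involution outside `R` is a coset of a cyclic group. See `stubs/Cfsg/Agent/R3/PLAN.md`. -/

set_option autoImplicit false
set_option linter.unusedSectionVars false

namespace Cfsg.Agent.R3

open Cfsg.Agent.Inv.Fz Cfsg.Agent.GH Cfsg.Agent.NE Subgroup
open scoped commutatorElement

variable {G : Type*} [Group G] [Finite G]

namespace OmA

variable {f : Fr G} {t t₁ t₂ ρ h u v g γ γ₁ γ₂ : G}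

/-- The class of `s`. -/
def Om (f : Fr G) (t : G) : Prop := ∃ g ∈ f.S, t = g * f.s * g⁻¹

/-- The commutator of `t` and `b`. -/
structure Gm (f : Fr G) (t γ : G) : Prop where
  mem : γ ∈ f.L
  sq : γ * γ = f.z
  inv : t * γ * t⁻¹ = γ⁻¹
  eq : f.b⁻¹ * t * f.b = t * γ

omit [Finite G] in
theorem pow4 (x : G) : x ^ 4 = x * x * (x * x) := by
  rw [show (4 : ℕ) = 2 + 2 from rfl, pow_add, pow_two]

theorem om_s : Om f f.s := ⟨1, one_mem _, by group⟩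

theorem Om.mem (h : Om f t) : t ∈ f.S := by
  obtain ⟨g, hg, rfl⟩ := h
  exact mul_mem (mul_mem hg f.sS) (inv_mem hg)

theorem Om.not (h : Om f t) : t ∉ f.R := by
  obtain ⟨g, hg, rfl⟩ := h
  exact fun e => f.s_not ((conj_mem_norm (f.nR hg)).1 e)

theorem Om.cj (h : Om f t) (hg : g ∈ f.S) : Om f (g * t * g⁻¹) := by
  obtain ⟨k, hk, rfl⟩ := h
  exact ⟨g * k, mul_mem hg hk, by group⟩

theorem z_conj (hg : g ∈ f.S) : g * f.z * g⁻¹ = f.z := conj_eq_of_comm (f.zc g hg).symm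

section
variable (hs : f.s * f.s = 1)
include hs

theorem Om.sq (h : Om f t) : t * t = 1 := by
  obtain ⟨g, -, rfl⟩ := h
  rw [← conj_mul', hs]; group

theorem Om.memE (h : Om f t) : t ∈ f.E := (f.out h.mem h.not (h.sq hs)).1

theorem Om.gm (h : Om f t) : ∃ γ, Gm f t γ := by
  obtain ⟨-, -, -, -, γ, h1, h2, h3, h4⟩ := f.out h.mem h.not (h.sq hs)
  exact ⟨γ, h1, h2, h3, h4⟩

theorem memS (h1 : Om f t) (h2 : Om f (t * ρ)) : ρ ∈ f.S := (mul_mem_cancel_left h1.mem).1 h2.mem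

theorem memR (h1 : Om f t) (h2 : Om f (t * ρ)) : ρ ∈ f.R := by
  have := f.mul_R h1.mem h2.mem h1.not h2.not
  rwa [sq_cancel (h1.sq hs)] at this

theorem inverts (h1 : Om f t) (h2 : Om f (t * ρ)) : t * ρ * t⁻¹ = ρ⁻¹ := by
  have := (inverts_mul (h1.sq hs) (h2.sq hs)).1
  simpa only [sq_cancel (h1.sq hs)] using this

theorem pw (h1 : Om f t) (h2 : Om f (t * ρ)) {x : G} (hx : x ∈ zpowers ρ) : Om f (t * x) := by
  have hρ := memS hs h1 h2
  obtain ⟨k, rfl⟩ := mem_zpowers_iff.1 hx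
  have e : ∀ j : ℤ, (ρ ^ j)⁻¹ * t = t * ρ ^ j := fun j => by
    rw [← inverts_zpowers (inverts hs h1 h2) (zpow_mem_zpowers ρ j), inv_of_sq (h1.sq hs), mul_assoc, h1.sq hs, mul_one]
  obtain ⟨j, rfl | rfl⟩ := Int.even_or_odd' k
  · have := h1.cj (inv_mem (zpow_mem hρ j))
    rwa [inv_inv, e, mul_assoc, ← zpow_add, ← two_mul] at this
  · have := h2.cj (inv_mem (zpow_mem hρ j))
    rwa [inv_inv, ← mul_assoc, e, show t * ρ ^ j * ρ * ρ ^ j = t * ρ ^ (2 * j + 1) by group] at this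

end

theorem h1' (h1 : f.H1 f.s) (ht : Om f t) (hv : v ∈ f.V) (h : Om f (t * v)) : v = 1 ∨ v = f.z := by
  obtain ⟨g, hg, rfl⟩ := ht
  obtain ⟨k, hk, e⟩ := h
  have m : g⁻¹ * v * g⁻¹⁻¹ ∈ f.V := (conj_mem_norm (f.nV (inv_mem hg))).2 hv
  have := h1 (g⁻¹ * k) (mul_mem (inv_mem hg) hk) _ m (by
    calc g⁻¹ * k * f.s * (g⁻¹ * k)⁻¹ = g⁻¹ * (k * f.s * k⁻¹) * g := by group
      _ = _ := by rw [← e]; group)
  rcases this with e | e
  · exact .inl (conj_inj.1 (e.trans (by group)))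
  · exact .inr (conj_inj.1 (e.trans (z_conj (inv_mem hg)).symm))

section
variable (hs : f.s * f.s = 1) (h1 : f.H1 f.s) (h2 : f.H2 f.s)
include hs h2

theorem h2' (ht : Om f t) (h : Om f (t * ρ)) (hC : ρ ∉ f.C) : ρ ^ 4 ≠ 1 := by
  have q := ht.sq hs
  obtain ⟨g, hg, rfl⟩ := ht
  obtain ⟨k, hk, e⟩ := h
  obtain ⟨r, hr, e2⟩ : ∃ r ∈ f.R, r * f.s * r⁻¹ = g⁻¹ * k * f.s * (g⁻¹ * k)⁻¹ := by
    have m := mul_mem (inv_mem hg) hk
    by_cases h : g⁻¹ * k ∈ f.R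
    · exact ⟨_, h, rfl⟩
    · exact ⟨_, f.mul_R m f.sS h f.s_not, by group⟩
  have e3 : ρ = g * (f.s * (r * f.s * r⁻¹)) * g⁻¹ := by
    rw [e2, ← sq_cancel q ρ, e]; group
  by_cases hE : r ∈ f.E
  · refine (hC ?_).elim
    rw [e3, conj_mem_norm (f.nC hg), show f.s * (r * f.s * r⁻¹) = f.s * r * (f.s * r) * (r⁻¹ * r⁻¹) by group]
    exact mul_mem (f.sq_E (mul_mem (om_s.memE hs) hE)) (f.sq_E (inv_mem hE))
  · intro e4
    rw [e3, conj_pow] at e4
    exact h2 r hr hE (conj_inj.1 (e4.trans (by group)))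

include h1

theorem two (ht : Om f t) (h : Om f (t * u)) (hu : u * u = 1) : u = 1 ∨ u = f.z := by
  by_cases hC : u ∈ f.C
  · exact h1' h1 ht (f.inv_C hC hu) h
  · exact (h2' hs h2 ht h hC (by rw [pow4, hu, one_mul])).elim

theorem sq_z (ht : Om f t) (hh : Om f (t * h)) (n2 : h * h ≠ 1) (n4 : h * h * (h * h) = 1) : h * h = f.z :=
  (two hs h1 h2 ht (pw hs ht hh (mul_mem (mem_zpowers h) (mem_zpowers h))) n4).resolve_left n2

omit hs h2 in
theorem four (ht : Om f t) (hh : Om f (t * h)) (hC : h ∈ f.C) (hz : h * h = f.z) {m : G} (hm : m ∈ f.L)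
    (m2 : m * m = f.z) (hc : m * h = h * m) (hγ : Gm f t γ) : h = γ ∨ h = γ * f.z := by
  obtain ⟨v, hv, rfl⟩ := f.eq_of_sq hm hC hc (hz.trans m2.symm)
  obtain ⟨v', hv', e⟩ := f.eq_of_sq hγ.mem (f.LC hm) (f.commL hγ.mem hm) (m2.trans hγ.sq.symm)
  have bL : f.b ∈ f.L := subset_closure (by simp)
  have hw := mul_mem hv' hv
  have := hh.cj (f.RS (f.CR (f.LC bL)))
  rw [e, mul_assoc γ, ← mul_assoc t, ← hγ.eq, show f.b * (f.b⁻¹ * t * f.b * (v' * v)) * f.b⁻¹ =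
    t * (f.b * (v' * v) * f.b⁻¹) by group, conj_eq_of_comm (f.commL bL (f.VL hw))] at this
  rw [e, mul_assoc]
  exact (h1' h1 ht hw this).imp (fun e => by rw [e, mul_one]) fun e => by rw [e]

/-- Members over different transvections. -/
theorem diff (a₁ : Om f t₁) (a₂ : Om f t₂) (hC : t₁ * t₂ ∉ f.C) (g₁ : Gm f t₁ γ₁) (g₂ : Gm f t₂ γ₂) :
    γ₂ = γ₁ ∨ γ₂ = γ₁ * f.z := by
  have q₁ := a₁.sq hs
  have q₂ := a₂.sq hs
  have b₂ : Om f (t₁ * (t₁ * t₂)) := by rwa [sq_cancel q₁]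
  have b₁ : Om f (t₂ * (t₁ * t₂)⁻¹) := by
    rwa [mul_inv_rev, inv_of_sq q₁, inv_of_sq q₂, sq_cancel q₂]
  have hR := memR hs a₁ b₂
  have lL : f.l ∈ f.L := subset_closure (by simp)
  set ρ := t₁ * t₂ with hρ
  obtain ⟨e, he, n2, n4⟩ := exists_pow_four f.two (f.RS (mul_mem hR hR)) (fun e => h2' hs h2 a₁ b₂ hC
    (by rw [pow4, e]))
  have he' : e ∈ zpowers ρ := zpowers_le.2 (mul_mem (mem_zpowers ρ) (mem_zpowers ρ)) he
  have eC : e ∈ f.C := zpowers_le.2 (f.sq_R hR) he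
  have k : ∀ {t : G}, Om f t → ∀ m ∈ f.L, m * m = f.z → t * m * t⁻¹ = m ∨ t * m * t⁻¹ = m * f.z :=
    fun h => (f.out h.mem h.not (h.sq hs)).2.2.1
  have k1 : ρ * f.l * ρ⁻¹ = f.l ∨ ρ * f.l * ρ⁻¹ = f.l * f.z := by
    rw [hρ, ← conj_conj]
    rcases k a₂ _ lL f.ll with e | e <;> rw [e]
    · exact k a₁ _ lL f.ll
    · rw [conj_mul', z_conj a₁.mem]
      rcases k a₁ _ lL f.ll with e | e <;> rw [e]
      · exact .inr rfl
      · exact .inl (by rw [mul_assoc, f.zz, mul_one])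
  have k2 : f.l * (ρ * ρ) = ρ * ρ * f.l := by
    refine (comm_of_conj_eq ?_).symm
    rw [← conj_conj]
    rcases k1 with e | e
    · rw [e, e]
    · rw [e, conj_mul', e, z_conj (f.RS hR), mul_assoc, f.zz, mul_one]
  have c₁ := pw hs a₁ b₂ he'
  have c₂ := pw hs a₂ b₁ (by rwa [zpowers_inv])
  have ez := sq_z hs h1 h2 a₁ c₁ n2 n4
  have d₁ := four h1 a₁ c₁ eC ez lL f.ll (comm_zpowers k2 he) g₁
  have d₂ := four h1 a₂ c₂ eC ez lL f.ll (comm_zpowers k2 he) g₂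
  rcases d₁ with rfl | d₁ <;> rcases d₂ with d₂ | d₂
  · exact .inl d₂.symm
  · exact .inr (by rw [d₂, mul_assoc, f.zz, mul_one])
  · exact .inr (d₂ ▸ d₁)
  · exact .inl (mul_right_cancel (d₂.symm.trans d₁))

omit h1 h2 in
theorem exists_other : ∃ t, Om f t ∧ f.s * t ∉ f.C := by
  obtain ⟨r, hr, e⟩ := f.cov_all (u := f.w) (subset_closure (by simp))
  refine ⟨_, om_s.cj (f.RS hr), fun h => ?_⟩
  have cw : r * f.w * r⁻¹ = f.w := conj_eq_of_comm ((f.mem_R.1 hr).2 _ (subset_closure (by simp)))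
  have e1 : r⁻¹ * f.a * r = f.a * f.w := by
    have : r * (f.a * f.w) * r⁻¹ = f.a := by rw [conj_mul', e, cw, mul_assoc, f.ww, mul_one]
    nth_rw 1 [← this]; group
  have e2 := (f.mem_C.1 h).2
  have e3 : f.s * (r * f.s * r⁻¹) * f.a * (f.s * (r * f.s * r⁻¹))⁻¹ =
      f.s * (r * (f.s * (r⁻¹ * f.a * r) * f.s⁻¹) * r⁻¹) * f.s⁻¹ := by group
  have k1 : f.s * (f.a * f.w) * f.s⁻¹ = f.a * (f.w * f.z) := by rw [conj_mul', f.sa, f.sw]
  have k2 : r * (f.a * (f.w * f.z)) * r⁻¹ = f.a * f.z := by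
    rw [conj_mul', conj_mul', e, cw, z_conj (f.RS hr), mul_assoc f.a, sq_cancel f.ww]
  have k3 : f.s * (f.a * f.z) * f.s⁻¹ = f.a * f.z := by rw [conj_mul', f.sa, z_conj f.sS]
  rw [e3, e1, k1, k2, k3] at e2
  exact f.z_ne (mul_eq_left.1 e2)

theorem same (g₀ : Gm f f.s γ) (ht : Om f t) (g₁ : Gm f t γ₁) : γ₁ = γ ∨ γ₁ = γ * f.z := by
  by_cases h : f.s * t ∈ f.C
  · obtain ⟨t', a, n⟩ := exists_other (f := f) hs
    obtain ⟨γ', g'⟩ := a.gm hs
    have n' : t * t' ∉ f.C := fun e => n (by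
      have := mul_mem h e
      rwa [mul_assoc, sq_cancel (ht.sq hs)] at this)
    rcases diff hs h1 h2 om_s a n g₀ g' with rfl | e <;> rcases diff hs h1 h2 ht a n' g₁ g' with e' | e'
    · exact .inl e'.symm
    · exact .inr (by rw [e', mul_assoc, f.zz, mul_one])
    · exact .inr (e' ▸ e)
    · exact .inl (mul_right_cancel (e'.symm.trans e))
  · exact diff hs h1 h2 om_s ht h g₀ g₁

theorem inv_γ (g₀ : Gm f f.s γ) (ht : Om f t) : t * γ * t⁻¹ = γ⁻¹ := by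
  obtain ⟨γ₁, g₁⟩ := ht.gm hs
  rcases same hs h1 h2 g₀ ht g₁ with rfl | e
  · exact g₁.inv
  · have := g₁.inv
    rw [e, conj_mul', z_conj ht.mem, mul_inv_rev, inv_of_sq f.zz,
      f.zc _ (inv_mem (f.RS (f.CR (f.LC g₀.mem))))] at this
    exact mul_right_cancel this

theorem ord4 (g₀ : Gm f f.s γ) (ht : Om f t) (hh : Om f (t * h)) (n2 : h * h ≠ 1) (n4 : h * h * (h * h) = 1) :
    h = γ ∨ h = γ * f.z := by
  obtain ⟨γ₁, g₁⟩ := ht.gm hs
  have hC : h ∈ f.C := by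
    by_contra n
    exact h2' hs h2 ht hh n (by rw [pow4, n4])
  have hc : h * γ * h⁻¹ = γ := by
    have e : t * (t * h * γ * (t * h)⁻¹) * t⁻¹ = t * t * (h * γ * h⁻¹) * (t * t)⁻¹ := by group
    rw [inv_γ hs h1 h2 g₀ hh, ht.sq hs, one_mul, inv_one, mul_one] at e
    rw [← e, show t * γ⁻¹ * t⁻¹ = (t * γ * t⁻¹)⁻¹ by group, inv_γ hs h1 h2 g₀ ht, inv_inv]
  have := four h1 ht hh hC (sq_z hs h1 h2 ht hh n2 n4) g₀.mem g₀.sq (comm_of_conj_eq hc).symm g₁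
  rcases same hs h1 h2 g₀ ht g₁ with rfl | e
  · exact this
  · rcases this with e' | e'
    · exact .inr (e'.trans e)
    · exact .inl (by rw [e', e, mul_assoc, f.zz, mul_one])

omit hs h1 h2 in
theorem ord_lt {x : G} (hx : x ∈ f.S) (h : x ≠ 1) : orderOf (x * x) < orderOf x := by
  obtain ⟨k, hk⟩ := IsPGroup.iff_orderOf.1 f.two ⟨x, hx⟩
  rw [← Subgroup.orderOf_coe] at hk
  simp only at hk
  obtain ⟨k, rfl⟩ : ∃ j, k = j + 1 := Nat.exists_eq_succ_of_ne_zero (by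
    rintro rfl
    exact h (orderOf_eq_one_iff.1 hk))
  refine lt_of_le_of_lt (orderOf_le_of_pow_eq_one (n := 2 ^ k) (by positivity) ?_) (hk ▸ by
    exact Nat.pow_lt_pow_right one_lt_two k.lt_succ_self)
  rw [← pow_two, ← pow_mul, ← pow_succ', ← hk, pow_orderOf_eq_one]

theorem all (g₀ : Gm f f.s γ) (hρ : Om f (f.s * ρ)) (hm : ∀ x, Om f (f.s * x) → orderOf x ≤ orderOf ρ)
    (hz : f.z ∈ zpowers ρ) {x : G} (hx : Om f (f.s * x)) : x ∈ zpowers ρ := by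
  refine ind2 f.two (P := fun x => Om f (f.s * x) → x ∈ zpowers ρ) (fun _ => one_mem _) (fun x hS ih hx => ?_) x
    (memS hs om_s hx) hx
  by_cases x1 : x = 1
  · rw [x1]; exact one_mem _
  obtain ⟨k, hk⟩ := (Submonoid.mem_powers_iff _ _).1 (mem_powers_iff_mem_zpowers.2
    (ih (pw hs om_s hx (mul_mem (mem_zpowers x) (mem_zpowers x)))))
  obtain ⟨j, rfl | rfl⟩ := Nat.even_or_odd' k
  · have m : ρ ^ j ∈ zpowers ρ := pow_mem (mem_zpowers ρ) j
    have a := pw hs om_s hρ m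
    set σ := ρ ^ j
    have e : σ * σ = x * x := by rw [← hk, two_mul, pow_add]
    have a' : Om f (f.s * σ * (σ⁻¹ * x)) := by rwa [mul_assoc, mul_inv_cancel_left]
    have c : f.s * (σ⁻¹ * x) * f.s⁻¹ = σ⁻¹ * x := by
      rw [conj_mul', inverts hs om_s hx, show f.s * σ⁻¹ * f.s⁻¹ = (f.s * σ * f.s⁻¹)⁻¹ by group, inverts hs om_s a,
        inv_inv]
      calc σ * x⁻¹ = σ⁻¹ * (σ * σ) * x⁻¹ := by group
        _ = _ := by rw [e]; group
    have k2 : σ⁻¹ * x * (σ⁻¹ * x) = 1 := by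
      by_contra n
      obtain ⟨e', he, n2, n4⟩ := exists_pow_four f.two (memS hs a a') n
      have c' := conj_eq_of_comm (comm_zpowers (comm_of_conj_eq c) he)
      have : f.s * γ * f.s⁻¹ = γ := by
        rcases ord4 hs h1 h2 g₀ a (pw hs a a' he) n2 n4 with rfl | rfl
        · exact c'
        · rw [conj_mul', z_conj f.sS] at c'
          exact mul_right_cancel c'
      rw [g₀.inv] at this
      exact f.z_ne (by rw [← g₀.sq]; nth_rw 1 [← this]; exact inv_mul_cancel γ)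
    rw [← mul_mem_cancel_left (inv_mem m)]
    rcases two hs h1 h2 a a' k2 with e | e <;> rw [e]
    exacts [one_mem _, hz]
  · exfalso
    obtain ⟨n, hn⟩ := IsPGroup.iff_orderOf.1 f.two ⟨ρ, memS hs om_s hρ⟩
    rw [← Subgroup.orderOf_coe] at hn
    simp only at hn
    have := Nat.Coprime.orderOf_pow (y := ρ) (m := 2 * j + 1) (by
      rw [hn]; exact (Nat.coprime_two_left.2 ⟨j, rfl⟩).pow_left n)
    have h3 := ord_lt hS x1
    have h4 := hm x hx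
    rw [hk] at this
    omega

end

end OmA

open OmA

theorem Fr.cyc (f : Fr G) (hs : f.s * f.s = 1) (h1 : f.H1 f.s) (h2 : f.H2 f.s) : ∃ ρ, f.Cy f.s ρ := by
  obtain ⟨γ, g₀⟩ := (om_s (f := f)).gm hs
  have bS : f.b ∈ f.S := f.RS (f.CR (f.LC (subset_closure (by simp))))
  have aγ : Om f (f.s * γ) := by
    have := (om_s (f := f)).cj (inv_mem bS)
    rwa [inv_inv, g₀.eq] at this
  obtain ⟨ρ, hρ, hm⟩ := Set.Finite.exists_maximalFor orderOf {x | Om f (f.s * x)} (Set.toFinite _) ⟨γ, aγ⟩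
  replace hm : ∀ x, Om f (f.s * x) → orderOf x ≤ orderOf ρ := fun x hx => by
    by_contra n
    exact n (hm hx (by omega))
  have hS := memS hs om_s hρ
  have n2 : ρ * ρ ≠ 1 := fun e => by
    have k1 : orderOf ρ ≤ 2 := orderOf_le_of_pow_eq_one two_pos (by rwa [pow_two])
    have k2 := hm γ aγ
    have k3 := ord_lt (f := f) (memS hs om_s aγ) (fun e => f.z_ne (by rw [← g₀.sq, e, one_mul]))
    have k4 := ord_lt (f := f) (f.VS f.zV) f.z_ne
    have k5 := orderOf_pos (f.z * f.z)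
    rw [g₀.sq] at k3
    omega
  have hz : f.z ∈ zpowers ρ := by
    obtain ⟨e, he, e1, e2⟩ := exists_pow_two f.two hS (fun e => n2 (by rw [e, one_mul]))
    exact (two hs h1 h2 om_s (pw hs om_s hρ he) e2).resolve_left e1 ▸ he
  have al : ∀ {t : G}, Om f t → f.s * t ∈ zpowers ρ := fun h =>
    all hs h1 h2 g₀ hρ hm hz (by rwa [sq_cancel hs])
  have hR := memR hs om_s hρ
  refine ⟨ρ, hR, ?_, fun r hr => ?_, inverts hs om_s hρ, fun r hr => mem_normalizer_of_conj_mem fun x hx => ?_,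
    γ, all hs h1 h2 g₀ hρ hm hz aγ, g₀.mem, g₀.sq⟩
  · obtain ⟨t, a, n⟩ := exists_other (f := f) hs
    have hE : ρ ∈ f.E := (mul_mem_cancel_left (om_s.memE hs)).1 (hρ.memE hs)
    exact (f.mem_E.1 hE).2.resolve_left fun e => n (zpowers_le.2 (f.mem_C.2 ⟨hR, e⟩) (al a))
  · have := al (om_s.cj (f.RS hr))
    rwa [inv_of_sq hs, show f.s * r * f.s * r⁻¹ = f.s * (r * f.s * r⁻¹) by group]
  · have a := al (om_s.cj (f.RS hr))
    have a' := al ((pw hs om_s hρ hx).cj (f.RS hr))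
    have := mul_mem (inv_mem a) a'
    rwa [show (f.s * (r * f.s * r⁻¹))⁻¹ * (f.s * (r * (f.s * x) * r⁻¹)) = r * x * r⁻¹ by group] at this

end Cfsg.Agent.R3
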